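import Mathlib

set_option autoImplicit false

/-!
# Groups in which involutions have elementary abelian centralizers (helper18)

If the centralizer of every involution of a finite group `G` is an elementary abelian
`2`-group and a Sylow `2`-subgroup `T` is neither cyclic nor normal, then `G` acts sharply
triply transitively on its `|T| + 1` Sylow `2`-subgroups.
-/

namespace Cfsg.Agent.Helper18

/-- Two involutions either commute with a common involution or are conjugate under an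
involution. -/
theorem dihedral_conj {G : Type*} [Group G] [Finite G] (s t : G) (hs : s * s = 1)
    (ht : t * t = 1) :
    (∃ z : G, z ≠ 1 ∧ z * z = 1 ∧ z * s = s * z ∧ z * t = t * z) ∨
      (∃ w : G, w * w = 1 ∧ w * s * w = t) := by
  obtain ⟨u, hu⟩ : ∃ u : G, u = s * t := ⟨_, rfl⟩
  have hsinv : s⁻¹ = s := inv_eq_of_mul_eq_one_right hs
  have htinv : t⁻¹ = t := inv_eq_of_mul_eq_one_right ht
  have hsu : s * u = t := by
    rw [hu, ← mul_assoc, hs, one_mul]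
  have hsus : ∀ i : ℕ, s * u ^ i * s = (u ^ i)⁻¹ := by
    intro i
    have h1 : s * u * s⁻¹ = u⁻¹ := by
      rw [hsu, hu, mul_inv_rev, hsinv, htinv]
    calc s * u ^ i * s = s * u ^ i * s⁻¹ := by rw [hsinv]
      _ = (s * u * s⁻¹) ^ i := conj_pow.symm
      _ = (u⁻¹) ^ i := by rw [h1]
      _ = (u ^ i)⁻¹ := inv_pow u i
  have hm : 0 < orderOf u := orderOf_pos u
  rcases Nat.even_or_odd (orderOf u) with ⟨j, hj⟩ | ⟨j, hj⟩
  · left
    have hj0 : 0 < j := by omega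
    have hz2 : u ^ j * u ^ j = 1 := by rw [← pow_add, ← hj, pow_orderOf_eq_one]
    have hzinv : (u ^ j)⁻¹ = u ^ j := inv_eq_of_mul_eq_one_right hz2
    have hzs : u ^ j * s = s * u ^ j := by
      have h := hsus j
      rw [hzinv] at h
      calc u ^ j * s = (s * u ^ j * s) * s := by rw [h]
        _ = s * u ^ j * (s * s) := by group
        _ = s * u ^ j := by rw [hs, mul_one]
    refine ⟨u ^ j, ?_, hz2, hzs, ?_⟩
    · exact pow_ne_one_of_lt_orderOf hj0.ne' (by omega)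
    · calc u ^ j * t = u ^ j * (s * u) := by rw [hsu]
        _ = (u ^ j * s) * u := by group
        _ = (s * u ^ j) * u := by rw [hzs]
        _ = s * (u ^ j * u) := by group
        _ = s * (u * u ^ j) := by rw [pow_mul_comm']
        _ = (s * u) * u ^ j := by group
        _ = t * u ^ j := by rw [hsu]
  · right
    refine ⟨s * u ^ (j + 1), ?_, ?_⟩
    · calc s * u ^ (j + 1) * (s * u ^ (j + 1)) = (s * u ^ (j + 1) * s) * u ^ (j + 1) := by
            simp only [mul_assoc]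
        _ = 1 := by rw [hsus, inv_mul_cancel]
    · calc s * u ^ (j + 1) * s * (s * u ^ (j + 1))
          = s * u ^ (j + 1) * (s * s) * u ^ (j + 1) := by simp only [mul_assoc]
        _ = s * (u ^ (j + 1) * u ^ (j + 1)) := by rw [hs, mul_one, mul_assoc]
        _ = s * u := by
            rw [← pow_add, show j + 1 + (j + 1) = orderOf u + 1 by omega, pow_succ,
              pow_orderOf_eq_one, one_mul]
        _ = t := hsu

theorem bsw_core {G : Type*} [Group G] [Finite G] (T : Sylow 2 G)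
    (hnc : ¬ IsCyclic (T : Subgroup G)) (hnn : ¬ (T : Subgroup G).Normal)
    (hC : ∀ t : G, orderOf t = 2 → IsMulCommutative (Subgroup.centralizer ({t} : Set G)) ∧
      ∀ c ∈ Subgroup.centralizer ({t} : Set G), c ^ 2 = 1) :
    (∃ a b c : Sylow 2 G, a ≠ b ∧ a ≠ c ∧ b ≠ c) ∧
    (∀ a b c a' b' c' : Sylow 2 G, a ≠ b → a ≠ c → b ≠ c → a' ≠ b' → a' ≠ c' → b' ≠ c' →
      ∃ g : G, g • a = a' ∧ g • b = b' ∧ g • c = c') ∧
    (∀ (g : G) (a b c : Sylow 2 G), a ≠ b → a ≠ c → b ≠ c → g • a = a → g • b = b →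
      g • c = c → g = 1) ∧
    Nat.card (Sylow 2 G) = Nat.card (T : Subgroup G) + 1 := by
  classical
  haveI hp2 : Fact (Nat.Prime 2) := ⟨Nat.prime_two⟩
  have hord2 : ∀ t : G, t ≠ 1 → t * t = 1 → orderOf t = 2 :=
    fun t h1 h2 => orderOf_eq_prime (by rw [pow_two]; exact h2) h1
  have hsm : ∀ (g : G) (P : Sylow 2 G) (x : G),
      x ∈ (g • P : Sylow 2 G) ↔ g⁻¹ * x * g ∈ P := by
    intro g P x
    show x ∈ ((g • P : Sylow 2 G) : Subgroup G) ↔ g⁻¹ * x * g ∈ (P : Subgroup G)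
    rw [Sylow.coe_subgroup_smul, Subgroup.mem_pointwise_smul_iff_inv_smul_mem, MulAut.smul_def,
      ← map_inv, MulAut.conj_apply, inv_inv]
  have hconj : ∀ (g : G) (P : Sylow 2 G) (x : G), x ∈ P →
      g * x * g⁻¹ ∈ (g • P : Sylow 2 G) := by
    intro g P x hx
    rw [hsm]
    have h : g⁻¹ * (g * x * g⁻¹) * g = x := by group
    rw [h]
    exact hx
  have hself : ∀ (P : Sylow 2 G) (t : G), t ∈ P → t • P = P := by
    intro P t ht
    rw [Sylow.smul_eq_iff_mem_normalizer]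
    exact Subgroup.le_normalizer ht
  have hne : ∀ P : Sylow 2 G, ∃ x ∈ P, x ≠ (1 : G) := by
    intro P
    by_contra hcon
    have hPbot : (P : Subgroup G) = ⊥ := by
      rw [eq_bot_iff]
      intro x hx
      rw [Subgroup.mem_bot]
      by_contra hx1
      exact hcon ⟨x, hx, hx1⟩
    have hcT : Nat.card (T : Subgroup G) = 1 := by
      rw [T.card_eq_multiplicity, ← P.card_eq_multiplicity, hPbot, Subgroup.card_bot]
    apply hnc
    haveI : Subsingleton (T : Subgroup G) := (Nat.card_eq_one_iff_unique.mp hcT).1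
    exact isCyclic_of_subsingleton
  -- structure of a Sylow subgroup
  have hP : ∀ P : Sylow 2 G, (∀ x ∈ P, x * x = 1) ∧ (∀ x ∈ P, ∀ y ∈ P, x * y = y * x) ∧
      (∀ t ∈ P, t ≠ 1 → ∀ g : G, g * t = t * g → g ∈ P) := by
    intro P
    obtain ⟨x₀, hx₀, hx₀1⟩ := hne P
    haveI : Nontrivial (P : Subgroup G) :=
      ⟨⟨⟨x₀, hx₀⟩, 1, fun h => hx₀1 (congrArg Subtype.val h)⟩⟩
    haveI := P.isPGroup'.center_nontrivial
    obtain ⟨z, hz⟩ := exists_ne (1 : Subgroup.center (P : Subgroup G))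
    obtain ⟨z', hz'⟩ : ∃ z' : G, z' = ((z : (P : Subgroup G)) : G) := ⟨_, rfl⟩
    have hz'P : z' ∈ P := by rw [hz']; exact (z : (P : Subgroup G)).2
    have hz'1 : z' ≠ 1 := by
      intro h
      apply hz
      apply Subtype.ext
      apply Subtype.ext
      rw [← hz', h]
      rfl
    have hz'c : ∀ x ∈ P, x * z' = z' * x := by
      intro x hx
      have h := Subgroup.mem_center_iff.mp z.2 ⟨x, hx⟩
      rw [hz']
      exact congrArg Subtype.val h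
    have h2dvd : 2 ∣ orderOf z' := by
      obtain ⟨k, hk⟩ := P.isPGroup' ⟨z', hz'P⟩
      have hk' : z' ^ 2 ^ k = 1 := congrArg Subtype.val hk
      have hdvd : orderOf z' ∣ 2 ^ k := orderOf_dvd_of_pow_eq_one hk'
      have hne1 : orderOf z' ≠ 1 := fun h => hz'1 (orderOf_eq_one_iff.mp h)
      have hmf := Nat.minFac_prime hne1
      have h1 : (orderOf z').minFac ∣ 2 := hmf.dvd_of_dvd_pow ((Nat.minFac_dvd _).trans hdvd)
      have h2 : (orderOf z').minFac = 2 := (Nat.prime_dvd_prime_iff_eq hmf Nat.prime_two).mp h1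
      rw [← h2]
      exact Nat.minFac_dvd _
    obtain ⟨t₀, ht₀⟩ : ∃ t₀ : G, t₀ = z' ^ (orderOf z' / 2) := ⟨_, rfl⟩
    have ht₀ord : orderOf t₀ = 2 := by
      rw [ht₀]
      exact orderOf_pow_orderOf_div (orderOf_pos z').ne' h2dvd
    have ht₀c : ∀ x ∈ P, x * t₀ = t₀ * x := by
      intro x hx
      rw [ht₀]
      exact (Commute.pow_right (hz'c x hx) _)
    obtain ⟨hcomm, hexp⟩ := hC t₀ ht₀ord
    have hle : ∀ x ∈ P, x ∈ Subgroup.centralizer ({t₀} : Set G) := by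
      intro x hx
      rw [Subgroup.mem_centralizer_iff]
      intro y hy
      rw [Set.mem_singleton_iff] at hy
      rw [hy]
      exact (ht₀c x hx).symm
    have h1 : ∀ x ∈ P, x * x = 1 := by
      intro x hx
      rw [← pow_two]
      exact hexp x (hle x hx)
    have h2 : ∀ x ∈ P, ∀ y ∈ P, x * y = y * x := by
      intro x hx y hy
      exact congrArg Subtype.val (hcomm.is_comm.comm ⟨x, hle x hx⟩ ⟨y, hle y hy⟩)
    refine ⟨h1, h2, ?_⟩
    intro t ht ht1 g hg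
    have htord : orderOf t = 2 := hord2 t ht1 (h1 t ht)
    obtain ⟨-, hexp'⟩ := hC t htord
    have hpg : IsPGroup 2 (Subgroup.centralizer ({t} : Set G)) := by
      intro c
      refine ⟨1, ?_⟩
      apply Subtype.ext
      rw [pow_one]
      exact hexp' c.1 c.2
    have hle' : (P : Subgroup G) ≤ Subgroup.centralizer ({t} : Set G) := by
      intro x hx
      rw [Subgroup.mem_centralizer_iff]
      intro y hy
      rw [Set.mem_singleton_iff] at hy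
      rw [hy]
      exact h2 t ht x hx
    have heq := P.is_maximal' hpg hle'
    have hgC : g ∈ Subgroup.centralizer ({t} : Set G) := by
      rw [Subgroup.mem_centralizer_iff]
      intro y hy
      rw [Set.mem_singleton_iff] at hy
      rw [hy]
      exact hg.symm
    rw [heq] at hgC
    exact hgC
  have hP1 : ∀ P : Sylow 2 G, ∀ x ∈ P, x * x = 1 := fun P => (hP P).1
  have hP3 : ∀ P : Sylow 2 G, ∀ x ∈ P, ∀ y ∈ P, x * y = y * x := fun P => (hP P).2.1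
  have hP2 : ∀ P : Sylow 2 G, ∀ t ∈ P, t ≠ 1 → ∀ g : G, g * t = t * g → g ∈ P :=
    fun P => (hP P).2.2
  have hinvs : ∀ P : Sylow 2 G, ∀ x ∈ P, x⁻¹ = x :=
    fun P x hx => inv_eq_of_mul_eq_one_right (hP1 P x hx)
  have hTI : ∀ P Q : Sylow 2 G, ∀ t : G, t ≠ 1 → t ∈ P → t ∈ Q → P = Q := by
    intro P Q t ht1 htP htQ
    have hle : (P : Subgroup G) ≤ Q := fun x hx => hP2 Q t htQ ht1 x (hP3 P x hx t htP)
    exact Sylow.ext (P.is_maximal' Q.isPGroup' hle).symm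
  have hP5 : ∀ P Q : Sylow 2 G, ∀ t ∈ P, t • Q = Q → t ∈ Q := by
    intro P Q t ht h
    have h1 : t ∈ (P : Subgroup G) ⊓ Subgroup.normalizer (Q : Set G) :=
      ⟨ht, Sylow.smul_eq_iff_mem_normalizer.mp h⟩
    rw [P.isPGroup'.inf_normalizer_sylow Q] at h1
    exact h1.2
  have hSR : ∀ P Q : Sylow 2 G, P ≠ Q → ∀ t ∈ P, t • Q = Q → t = 1 := by
    intro P Q hPQ t ht h
    by_contra ht1
    exact hPQ (hTI P Q t ht1 ht (hP5 P Q t ht h))
  have hSR2 : ∀ P Q : Sylow 2 G, P ≠ Q → ∀ t₁ ∈ P, ∀ t₂ ∈ P, t₁ • Q = t₂ • Q → t₁ = t₂ := by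
    intro P Q hPQ t₁ h1 t₂ h2 h
    have h3 : (t₂⁻¹ * t₁) • Q = Q := by rw [mul_smul, h, inv_smul_smul]
    have h4 := hSR P Q hPQ _ ((P : Subgroup G).mul_mem ((P : Subgroup G).inv_mem h2) h1) h3
    exact (inv_mul_eq_one.mp h4).symm
  have hP6 : ∀ t : G, t ≠ 1 → t * t = 1 → ∃ P : Sylow 2 G, t ∈ P := by
    intro t ht1 htt
    have hpg : IsPGroup 2 (Subgroup.zpowers t) := by
      apply IsPGroup.of_card (n := 1)
      rw [Nat.card_zpowers, hord2 t ht1 htt, pow_one]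
    obtain ⟨P, hP⟩ := hpg.exists_le_sylow
    exact ⟨P, hP (Subgroup.mem_zpowers t)⟩
  have hH1 : ∀ P Q : Sylow 2 G, P ≠ Q → ∀ h : G, h • Q = Q → ∀ t ∈ P, t ≠ 1 →
      h * t = t * h → h = 1 := by
    intro P Q hPQ h hQ t ht ht1 hc
    exact hSR P Q hPQ h (hP2 P t ht ht1 h hc) hQ
  have hSW : ∀ P Q : Sylow 2 G, P ≠ Q → ∀ t ∈ P, t ≠ 1 → ∀ t' ∈ Q, t' ≠ 1 →
      ∃ w : G, w * w = 1 ∧ w * t * w = t' ∧ w • P = Q ∧ w • Q = P := by
    intro P Q hPQ t ht ht1 t' ht' ht'1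
    rcases dihedral_conj t t' (hP1 P t ht) (hP1 Q t' ht') with
      ⟨z, hz1, hzz, hzt, hzt'⟩ | ⟨w, hww, hw⟩
    · exfalso
      exact hPQ (hTI P Q z hz1 (hP2 P t ht ht1 z hzt) (hP2 Q t' ht' ht'1 z hzt'))
    · have hwinv : w⁻¹ = w := inv_eq_of_mul_eq_one_right hww
      have h1 : w • P = Q := by
        apply hTI (w • P) Q t' ht'1 _ ht'
        have h := hconj w P t ht
        rw [hwinv, hw] at h
        exact h
      refine ⟨w, hww, hw, h1, ?_⟩
      rw [← h1, ← mul_smul, hww, one_smul]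
  have hsw2 : ∀ (P Q : Sylow 2 G) (s : G), s * s = 1 → s • P = Q → s • Q = P := by
    intro P Q s hss h
    rw [← h, ← mul_smul, hss, one_smul]
  have hH2 : ∀ P Q : Sylow 2 G, P ≠ Q → ∀ t ∈ P, t ≠ 1 → ∀ b ∈ P, b ≠ 1 →
      ∀ s : G, s * s = 1 → s • P = Q →
      ∃ w : G, w * w = 1 ∧ w • P = Q ∧ w • Q = P ∧ (s * w) * t * (s * w)⁻¹ = b := by
    intro P Q hPQ t ht ht1 b hb hb1 s hss hsP
    have hsinv : s⁻¹ = s := inv_eq_of_mul_eq_one_right hss
    have ht'Q : s * b * s ∈ Q := by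
      have h := hconj s P b hb
      rw [hsinv, hsP] at h
      exact h
    have ht'1 : s * b * s ≠ 1 := by
      intro h
      apply hb1
      calc b = (s * s) * b * (s * s) := by rw [hss, one_mul, mul_one]
        _ = s * (s * b * s) * s := by simp only [mul_assoc]
        _ = 1 := by rw [h, mul_one, hss]
    obtain ⟨w, hww, hw, hwP, hwQ⟩ := hSW P Q hPQ t ht ht1 (s * b * s) ht'Q ht'1
    have hwinv : w⁻¹ = w := inv_eq_of_mul_eq_one_right hww
    refine ⟨w, hww, hwP, hwQ, ?_⟩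
    rw [mul_inv_rev, hwinv, hsinv]
    calc s * w * t * (w * s) = s * (w * t * w) * s := by simp only [mul_assoc]
      _ = s * (s * b * s) * s := by rw [hw]
      _ = (s * s) * b * (s * s) := by simp only [mul_assoc]
      _ = b := by rw [hss, one_mul, mul_one]
  have hS0 : ∀ P Q : Sylow 2 G, P ≠ Q → ∃ s : G, s * s = 1 ∧ s • P = Q ∧ s • Q = P := by
    intro P Q hPQ
    obtain ⟨t, ht, ht1⟩ := hne P
    obtain ⟨t', ht', ht'1⟩ := hne Q
    obtain ⟨w, hww, -, h1, h2⟩ := hSW P Q hPQ t ht ht1 t' ht' ht'1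
    exact ⟨w, hww, h1, h2⟩
  have hH2' : ∀ P Q : Sylow 2 G, P ≠ Q → ∀ t ∈ P, t ≠ 1 → ∀ b ∈ P, b ≠ 1 →
      ∃ h : G, h • P = P ∧ h • Q = Q ∧ h * t * h⁻¹ = b := by
    intro P Q hPQ t ht ht1 b hb hb1
    obtain ⟨s, hss, hsP, hsQ⟩ := hS0 P Q hPQ
    obtain ⟨w, hww, hwP, hwQ, hw⟩ := hH2 P Q hPQ t ht ht1 b hb hb1 s hss hsP
    exact ⟨s * w, by rw [mul_smul, hwP, hsQ], by rw [mul_smul, hwQ, hsP], hw⟩
  have hcj1 : ∀ (x t : G), t ≠ 1 → x * t * x⁻¹ ≠ 1 := by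
    intro x t ht1 e
    apply ht1
    calc t = x⁻¹ * (x * t * x⁻¹) * x := by group
      _ = 1 := by rw [e]; group
  have hH3 : ∀ P Q : Sylow 2 G, P ≠ Q → ∀ s : G, s * s = 1 → s • P = Q →
      ∀ h : G, h • P = P → h • Q = Q → s * h * s = h⁻¹ := by
    intro P Q hPQ s hss hsP h hhP hhQ
    obtain ⟨t, ht, ht1⟩ := hne P
    have hsQ := hsw2 P Q s hss hsP
    have hb : h * t * h⁻¹ ∈ P := by
      have h' := hconj h P t ht
      rw [hhP] at h'
      exact h'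
    have hb1 : h * t * h⁻¹ ≠ 1 := hcj1 h t ht1
    obtain ⟨w, hww, hwP, hwQ, hw⟩ := hH2 P Q hPQ t ht ht1 _ hb hb1 s hss hsP
    have hswQ : (s * w) • Q = Q := by rw [mul_smul, hwQ, hsP]
    have hy : ((s * w)⁻¹ * h) • Q = Q := by rw [mul_smul, hhQ, inv_smul_eq_iff, hswQ]
    have hyc : ((s * w)⁻¹ * h) * t = t * ((s * w)⁻¹ * h) := by
      have h3 : (s * w)⁻¹ * (h * t * h⁻¹) * (s * w) = t := by rw [← hw]; group
      calc (s * w)⁻¹ * h * t = ((s * w)⁻¹ * (h * t * h⁻¹) * (s * w)) * ((s * w)⁻¹ * h) := by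
            group
        _ = t * ((s * w)⁻¹ * h) := by rw [h3]
    have hy1 := hH1 P Q hPQ _ hy t ht ht1 hyc
    have hh : h = s * w := (inv_mul_eq_one.mp hy1).symm
    rw [hh, mul_inv_rev, inv_eq_of_mul_eq_one_right hww, inv_eq_of_mul_eq_one_right hss]
    calc s * (s * w) * s = (s * s) * w * s := by simp only [mul_assoc]
      _ = w * s := by rw [hss, one_mul]
  have hH4 : ∀ P Q : Sylow 2 G, P ≠ Q → ∀ h h' : G, h • P = P → h • Q = Q → h' • P = P →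
      h' • Q = Q → h * h' = h' * h := by
    intro P Q hPQ h h' h1 h2 h1' h2'
    obtain ⟨s, hss, hsP, hsQ⟩ := hS0 P Q hPQ
    have e1 := hH3 P Q hPQ s hss hsP h h1 h2
    have e2 := hH3 P Q hPQ s hss hsP h' h1' h2'
    have e3 := hH3 P Q hPQ s hss hsP (h * h') (by rw [mul_smul, h1', h1])
      (by rw [mul_smul, h2', h2])
    have e4 : h⁻¹ * h'⁻¹ = h'⁻¹ * h⁻¹ := by
      calc h⁻¹ * h'⁻¹ = (s * h * s) * (s * h' * s) := by rw [e1, e2]
        _ = s * h * (s * s) * h' * s := by simp only [mul_assoc]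
        _ = s * (h * h') * s := by rw [hss, mul_one]; simp only [mul_assoc]
        _ = (h * h')⁻¹ := e3
        _ = h'⁻¹ * h⁻¹ := mul_inv_rev h h'
    calc h * h' = (h'⁻¹ * h⁻¹)⁻¹ := by group
      _ = (h⁻¹ * h'⁻¹)⁻¹ := by rw [e4]
      _ = h' * h := by group
  have hN1 : ∀ P Q : Sylow 2 G, P ≠ Q → ∀ x : G, x • P = P →
      ∃ τ ∈ P, ∃ h : G, h • P = P ∧ h • Q = Q ∧ x = τ * h := by
    intro P Q hPQ x hx
    obtain ⟨t, ht, ht1⟩ := hne P
    have hb : x * t * x⁻¹ ∈ P := by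
      have h' := hconj x P t ht
      rw [hx] at h'
      exact h'
    have hb1 : x * t * x⁻¹ ≠ 1 := hcj1 x t ht1
    obtain ⟨h, hhP, hhQ, hh⟩ := hH2' P Q hPQ t ht ht1 _ hb hb1
    have hyc : (x * h⁻¹) * (x * t * x⁻¹) = (x * t * x⁻¹) * (x * h⁻¹) := by
      calc (x * h⁻¹) * (x * t * x⁻¹) = x * h⁻¹ * (h * t * h⁻¹) := by rw [hh]
        _ = x * t * h⁻¹ := by group
        _ = (x * t * x⁻¹) * (x * h⁻¹) := by group
    have hyP : x * h⁻¹ ∈ P := hP2 P _ hb hb1 _ hyc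
    exact ⟨x * h⁻¹, hyP, h, hhP, hhQ, by group⟩
  have hE2 : ∀ P : Sylow 2 G, ∃ t ∈ P, ∃ b ∈ P, t ≠ 1 ∧ b ≠ 1 ∧ t ≠ b := by
    intro P
    obtain ⟨x, hx, hx1⟩ := hne P
    by_contra hcon
    have hall : ∀ y ∈ P, y = 1 ∨ y = x := by
      intro y hy
      by_contra h
      exact hcon ⟨x, hx, y, hy, hx1, fun h1 => h (Or.inl h1), fun h2 => h (Or.inr h2.symm)⟩
    have hcard : Nat.card (P : Subgroup G) = 2 := by
      rw [Nat.card_eq_two_iff]
      refine ⟨⟨x, hx⟩, 1, fun h => hx1 (congrArg Subtype.val h), ?_⟩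
      ext y
      simp only [Set.mem_insert_iff, Set.mem_singleton_iff, Set.mem_univ, iff_true]
      rcases hall y.1 y.2 with h | h
      · right; exact Subtype.ext h
      · left; exact Subtype.ext h
    apply hnc
    have hcT : Nat.card (T : Subgroup G) = 2 := by
      rw [T.card_eq_multiplicity, ← P.card_eq_multiplicity, hcard]
    exact isCyclic_of_prime_card hcT
  -- a Sylow subgroup is transitive on the other Sylow subgroups
  have hT1 : ∀ P Q R : Sylow 2 G, P ≠ Q → R ≠ P → ∃ t ∈ P, t • Q = R := by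
    intro P Q R hPQ hRP
    by_contra hcon
    have hR : ∀ t ∈ P, t • Q ≠ R := fun t ht h => hcon ⟨t, ht, h⟩
    obtain ⟨t, ht, b, hb, ht1, hb1, htb⟩ := hE2 P
    obtain ⟨k₀, hk₀P, hk₀Q, hk₀⟩ := hH2' P Q hPQ t ht ht1 b hb hb1
    have hk₀1 : k₀ ≠ 1 := by
      intro h
      rw [h] at hk₀
      apply htb
      calc t = 1 * t * 1⁻¹ := by group
        _ = b := hk₀
    obtain ⟨τ, hτ, h', hh'P, hh'R, hk₀τ⟩ := hN1 P R (Ne.symm hRP) k₀ hk₀P
    have hk₀R : k₀ • R = τ • R := by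
      have e : k₀ • R = (τ * h') • R := by rw [← hk₀τ]
      rw [e, mul_smul, hh'R]
    have hkmem : ∀ x ∈ P, k₀ * x * k₀⁻¹ ∈ P := by
      intro x hx
      have h := hconj k₀ P x hx
      rw [hk₀P] at h
      exact h
    obtain ⟨ψ, hψ⟩ : ∃ ψ : ↥(P : Subgroup G) → ↥(P : Subgroup G), ∀ x : ↥(P : Subgroup G),
        ((ψ x : ↥(P : Subgroup G)) : G) = (x : G) * (k₀ * (x : G) * k₀⁻¹) :=
      ⟨fun x => ⟨(x : G) * (k₀ * (x : G) * k₀⁻¹),
        (P : Subgroup G).mul_mem x.2 (hkmem x.1 x.2)⟩, fun x => rfl⟩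
    have hψinj : Function.Injective ψ := by
      intro x y hxy
      have e : (x : G) * (k₀ * (x : G) * k₀⁻¹) = (y : G) * (k₀ * (y : G) * k₀⁻¹) := by
        rw [← hψ, ← hψ, hxy]
      have e2 : (y : G)⁻¹ * (x : G) = k₀ * ((y : G) * (x : G)⁻¹) * k₀⁻¹ := by
        calc (y : G)⁻¹ * (x : G)
            = (y : G)⁻¹ * ((x : G) * (k₀ * (x : G) * k₀⁻¹)) * (k₀ * (x : G) * k₀⁻¹)⁻¹ := by
              group
          _ = (y : G)⁻¹ * ((y : G) * (k₀ * (y : G) * k₀⁻¹)) * (k₀ * (x : G) * k₀⁻¹)⁻¹ := by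
              rw [e]
          _ = k₀ * ((y : G) * (x : G)⁻¹) * k₀⁻¹ := by group
      have e3 : (y : G)⁻¹ * (x : G) = (y : G) * (x : G)⁻¹ := by
        rw [hinvs P y.1 y.2, hinvs P x.1 x.2]
      have hd : k₀ * ((y : G) * (x : G)⁻¹) = ((y : G) * (x : G)⁻¹) * k₀ := by
        have e4 : (y : G) * (x : G)⁻¹ = k₀ * ((y : G) * (x : G)⁻¹) * k₀⁻¹ := e3.symm.trans e2
        calc k₀ * ((y : G) * (x : G)⁻¹) = (k₀ * ((y : G) * (x : G)⁻¹) * k₀⁻¹) * k₀ := by group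
          _ = ((y : G) * (x : G)⁻¹) * k₀ := by rw [← e4]
      by_contra hxy'
      have hd1 : (y : G) * (x : G)⁻¹ ≠ 1 := by
        intro h
        apply hxy'
        apply Subtype.ext
        exact (mul_inv_eq_one.mp h).symm
      exact hk₀1 (hH1 P Q hPQ k₀ hk₀Q _
        ((P : Subgroup G).mul_mem y.2 ((P : Subgroup G).inv_mem x.2)) hd1 hd)
    obtain ⟨t₂, ht₂⟩ := Finite.surjective_of_injective hψinj ⟨τ, hτ⟩
    have ht₂' : (t₂ : G) * (k₀ * (t₂ : G) * k₀⁻¹) = τ := by rw [← hψ, ht₂]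
    obtain ⟨R', hR'⟩ : ∃ R' : Sylow 2 G, R' = (t₂ : G) • R := ⟨_, rfl⟩
    have hk₀R' : k₀ • R' = R' := by
      obtain ⟨c, hc⟩ : ∃ c : G, c = k₀ * (t₂ : G) * k₀⁻¹ := ⟨_, rfl⟩
      have hcP : c ∈ P := by rw [hc]; exact hkmem _ t₂.2
      have e : k₀ * (t₂ : G) = c * k₀ := by rw [hc]; group
      have e2 : c * τ = (t₂ : G) := by
        rw [← ht₂', ← hc]
        calc c * ((t₂ : G) * c) = (c * (t₂ : G)) * c := by simp only [mul_assoc]
          _ = ((t₂ : G) * c) * c := by rw [hP3 P c hcP _ t₂.2]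
          _ = (t₂ : G) * (c * c) := by simp only [mul_assoc]
          _ = (t₂ : G) := by rw [hP1 P c hcP, mul_one]
      rw [hR', ← mul_smul, e, mul_smul, hk₀R, ← mul_smul, e2]
    have hR'P : R' ≠ P := by
      intro h
      apply hRP
      have e : R = (t₂ : G)⁻¹ • R' := by rw [hR', inv_smul_smul]
      rw [e, h]
      exact hself P _ ((P : Subgroup G).inv_mem t₂.2)
    have hR'orb : ∀ t ∈ P, t • Q ≠ R' := by
      intro t ht h
      apply hR ((t₂ : G)⁻¹ * t) ((P : Subgroup G).mul_mem ((P : Subgroup G).inv_mem t₂.2) ht)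
      rw [mul_smul, h, hR', inv_smul_smul]
    have hR'Q : R' ≠ Q := by
      intro h
      apply hR'orb 1 (P : Subgroup G).one_mem
      rw [one_smul, h]
    have hKR' : ∀ k : G, k • P = P → k • Q = Q → k • R' = R' := by
      intro k hkP hkQ
      obtain ⟨τ', hτ', h'', hh''P, hh''R', hkτ'⟩ := hN1 P R' (Ne.symm hR'P) k hkP
      have hkR' : k • R' = τ' • R' := by
        have e : k • R' = (τ' * h'') • R' := by rw [← hkτ']
        rw [e, mul_smul, hh''R']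
      have hfix : k₀ • (τ' • R') = τ' • R' := by
        rw [← hkR', ← mul_smul, hH4 P Q hPQ k₀ k hk₀P hk₀Q hkP hkQ, mul_smul, hk₀R']
      have hfix2 : (k₀ * τ' * k₀⁻¹) • R' = τ' • R' := by
        rw [mul_smul, mul_smul, inv_smul_eq_iff.mpr hk₀R'.symm]
        exact hfix
      have e := hSR2 P R' (Ne.symm hR'P) _ (hkmem τ' hτ') _ hτ' hfix2
      have hτ'1 : τ' = 1 := by
        by_contra hτ'1
        have hc : k₀ * τ' = τ' * k₀ := by
          calc k₀ * τ' = (k₀ * τ' * k₀⁻¹) * k₀ := by group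
            _ = τ' * k₀ := by rw [e]
        exact hk₀1 (hH1 P Q hPQ k₀ hk₀Q τ' hτ' hτ'1 hc)
      rw [hkR', hτ'1, one_smul]
    obtain ⟨s₁, hs₁, hs₁P, hs₁Q⟩ := hS0 P Q hPQ
    obtain ⟨s₂, hs₂, hs₂P, hs₂R⟩ := hS0 P R' (Ne.symm hR'P)
    obtain ⟨s₃, hs₃, hs₃Q, hs₃R⟩ := hS0 Q R' (Ne.symm hR'Q)
    have hxP : (s₁ * s₃ * s₂) • P = P := by rw [mul_smul, mul_smul, hs₂P, hs₃R, hs₁Q]
    have hk₀R'' := hKR' k₀ hk₀P hk₀Q
    have hki : k₀⁻¹ • Q = Q := by rw [inv_smul_eq_iff, hk₀Q]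
    have hkiR : k₀⁻¹ • R' = R' := by rw [inv_smul_eq_iff, hk₀R'']
    have e2 := hH3 P R' (Ne.symm hR'P) s₂ hs₂ hs₂P k₀ hk₀P hk₀R''
    have e3 := hH3 Q R' (Ne.symm hR'Q) s₃ hs₃ hs₃Q k₀⁻¹ hki hkiR
    have e1 := hH3 P Q hPQ s₁ hs₁ hs₁P k₀ hk₀P hk₀Q
    have hxk : (s₁ * s₃ * s₂) * k₀ * (s₁ * s₃ * s₂)⁻¹ = k₀⁻¹ := by
      have hinv : (s₁ * s₃ * s₂)⁻¹ = s₂ * s₃ * s₁ := by
        rw [mul_inv_rev, mul_inv_rev, inv_eq_of_mul_eq_one_right hs₁,
          inv_eq_of_mul_eq_one_right hs₂, inv_eq_of_mul_eq_one_right hs₃, mul_assoc]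
      rw [hinv]
      calc s₁ * s₃ * s₂ * k₀ * (s₂ * s₃ * s₁) = s₁ * (s₃ * (s₂ * k₀ * s₂) * s₃) * s₁ := by
            simp only [mul_assoc]
        _ = s₁ * (s₃ * k₀⁻¹ * s₃) * s₁ := by rw [e2]
        _ = s₁ * k₀ * s₁ := by rw [e3, inv_inv]
        _ = k₀⁻¹ := e1
    obtain ⟨τ₀, hτ₀, h₀, hh₀P, hh₀Q, hx⟩ := hN1 P Q hPQ _ hxP
    have hτk : τ₀ * k₀ * τ₀⁻¹ = k₀⁻¹ := by
      have hc := hH4 P Q hPQ h₀ k₀ hh₀P hh₀Q hk₀P hk₀Q
      rw [hx] at hxk
      calc τ₀ * k₀ * τ₀⁻¹ = τ₀ * (k₀ * h₀) * h₀⁻¹ * τ₀⁻¹ := by group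
        _ = τ₀ * (h₀ * k₀) * h₀⁻¹ * τ₀⁻¹ := by rw [hc]
        _ = (τ₀ * h₀) * k₀ * (τ₀ * h₀)⁻¹ := by group
        _ = k₀⁻¹ := hxk
    have hsqP : k₀⁻¹ * k₀⁻¹ ∈ P := by
      have h1 : k₀⁻¹ * k₀⁻¹ = τ₀ * (k₀ * τ₀⁻¹ * k₀⁻¹) := by
        calc k₀⁻¹ * k₀⁻¹ = (τ₀ * k₀ * τ₀⁻¹) * k₀⁻¹ := by rw [hτk]
          _ = τ₀ * (k₀ * τ₀⁻¹ * k₀⁻¹) := by group
      rw [h1]
      exact (P : Subgroup G).mul_mem hτ₀ (hkmem _ ((P : Subgroup G).inv_mem hτ₀))
    have hsq1 : k₀⁻¹ * k₀⁻¹ = 1 := hSR P Q hPQ _ hsqP (by rw [mul_smul, hki, hki])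
    have hkk : k₀ * k₀ = 1 := by
      calc k₀ * k₀ = (k₀⁻¹ * k₀⁻¹)⁻¹ := by rw [mul_inv_rev, inv_inv]
        _ = 1 := by rw [hsq1, inv_one]
    obtain ⟨S, hS⟩ := hP6 k₀ hk₀1 hkk
    have hk₀inP : k₀ ∈ P := hP5 S P k₀ hS hk₀P
    exact hk₀1 (hSR P Q hPQ k₀ hk₀inP hk₀Q)
  have hT2 : ∀ P Q R R' : Sylow 2 G, P ≠ Q → R ≠ P → R ≠ Q → R' ≠ P → R' ≠ Q →
      ∃ h : G, h • P = P ∧ h • Q = Q ∧ h • R = R' := by
    intro P Q R R' hPQ hRP hRQ hR'P hR'Q
    obtain ⟨t, ht, htQ⟩ := hT1 P Q R hPQ hRP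
    obtain ⟨b, hb, hbQ⟩ := hT1 P Q R' hPQ hR'P
    have ht1 : t ≠ 1 := by
      rintro rfl
      rw [one_smul] at htQ
      exact hRQ htQ.symm
    have hb1 : b ≠ 1 := by
      rintro rfl
      rw [one_smul] at hbQ
      exact hR'Q hbQ.symm
    obtain ⟨h, hhP, hhQ, hh⟩ := hH2' P Q hPQ t ht ht1 b hb hb1
    refine ⟨h, hhP, hhQ, ?_⟩
    rw [← htQ, ← hbQ, ← hh, mul_smul, mul_smul, inv_smul_eq_iff.mpr hhQ.symm]
  have hG3t : ∀ a b c a' b' c' : Sylow 2 G, a ≠ b → a ≠ c → b ≠ c → a' ≠ b' → a' ≠ c' →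
      b' ≠ c' → ∃ g : G, g • a = a' ∧ g • b = b' ∧ g • c = c' := by
    intro a b c a' b' c' hab hac hbc hab' hac' hbc'
    obtain ⟨g₁, hg₁⟩ := MulAction.exists_smul_eq G a a'
    have hb₁ : a' ≠ g₁ • b := by
      intro h
      rw [← hg₁] at h
      exact hab (smul_left_cancel _ h)
    obtain ⟨t, ht, htb⟩ := hT1 a' (g₁ • b) b' hb₁ (Ne.symm hab')
    have hta : t • a' = a' := hself a' t ht
    have hc₂a : (t * g₁) • c ≠ a' := by
      intro h
      have e : (t * g₁) • c = (t * g₁) • a := by rw [h, mul_smul, hg₁, hta]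
      exact hac (smul_left_cancel _ e).symm
    have hc₂b : (t * g₁) • c ≠ b' := by
      intro h
      have e : (t * g₁) • c = (t * g₁) • b := by rw [h, mul_smul, htb]
      exact hbc (smul_left_cancel _ e).symm
    obtain ⟨h, hha, hhb, hhc⟩ := hT2 a' b' ((t * g₁) • c) c' hab' hc₂a hc₂b (Ne.symm hac')
      (Ne.symm hbc')
    refine ⟨h * (t * g₁), ?_, ?_, ?_⟩
    · rw [mul_smul, mul_smul, hg₁, hta, hha]
    · rw [mul_smul, mul_smul, htb, hhb]
    · rw [mul_smul, hhc]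
  have hG3s : ∀ (g : G) (a b c : Sylow 2 G), a ≠ b → a ≠ c → b ≠ c → g • a = a → g • b = b →
      g • c = c → g = 1 := by
    intro g a b c hab hac hbc hga hgb hgc
    obtain ⟨t, ht, htb⟩ := hT1 a b c hab (Ne.symm hac)
    have ht1 : t ≠ 1 := by
      rintro rfl
      rw [one_smul] at htb
      exact hbc htb
    have hgt : g * t * g⁻¹ ∈ a := by
      have h := hconj g a t ht
      rw [hga] at h
      exact h
    have h1 : (g * t * g⁻¹) • b = t • b := by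
      rw [mul_smul, mul_smul, inv_smul_eq_iff.mpr hgb.symm, htb, hgc]
    have e := hSR2 a b hab _ hgt _ ht h1
    have hc : g * t = t * g := by
      calc g * t = (g * t * g⁻¹) * g := by group
        _ = t * g := by rw [e]
    exact hH1 a b hab g hgb t ht ht1 hc
  obtain ⟨Q, hQT⟩ : ∃ Q : Sylow 2 G, T ≠ Q := by
    by_contra hcon
    apply hnn
    rw [← Subgroup.normalizer_eq_top_iff, eq_top_iff]
    intro g _
    have hg : g • T = T := by
      by_contra h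
      exact hcon ⟨g • T, fun h' => h h'.symm⟩
    exact Sylow.smul_eq_iff_mem_normalizer.mp hg
  have hnT : ∀ t ∈ T, t • Q ≠ T := by
    intro t ht h
    apply hQT
    have e : Q = t⁻¹ • T := by rw [← h, inv_smul_smul]
    rw [e]
    exact (hself T _ ((T : Subgroup G).inv_mem ht)).symm
  obtain ⟨t₁, ht₁, ht₁1⟩ := hne T
  refine ⟨⟨T, Q, t₁ • Q, hQT, fun h => hnT t₁ ht₁ h.symm,
    fun h => ht₁1 (hSR T Q hQT t₁ ht₁ h.symm)⟩, hG3t, hG3s, ?_⟩
  rw [← Finite.card_option]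
  symm
  apply Nat.card_eq_of_bijective
    (fun o : Option (T : Subgroup G) => Option.elim o T (fun t => (t : G) • Q))
  constructor
  · intro o o' h
    rcases o with _ | t <;> rcases o' with _ | t'
    · rfl
    · exfalso
      have h' : T = (t' : G) • Q := h
      exact hnT _ t'.2 h'.symm
    · exfalso
      have h' : (t : G) • Q = T := h
      exact hnT _ t.2 h'
    · have h' : (t : G) • Q = (t' : G) • Q := h
      rw [Subtype.ext (hSR2 T Q hQT _ t.2 _ t'.2 h')]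
  · intro R
    by_cases hR : R = T
    · exact ⟨none, hR.symm⟩
    · obtain ⟨t, ht, htR⟩ := hT1 T Q R hQT hR
      exact ⟨some ⟨t, ht⟩, htR⟩

end Cfsg.Agent.Helper18
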