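import Mathlib
import Cfsg.Agent.Helper18.Fsp

/-!
# 3-transposition lines form a Fischer space: the affine plane case (helper18)
-/

set_option autoImplicit false

namespace Cfsg.Agent.Helper18.Fsp

open Cfsg Cfsg.LineSystem

variable {G : Type*} [Group G]

/-- the table for the affine plane -/
def tblA (a b c : G) : Fin 3 → Fin 3 → G
  | 0, 0 => a
  | 0, 1 => c
  | 0, 2 => a * c * a
  | 1, 0 => b
  | 1, 1 => a * (b * c * b) * a
  | 1, 2 => c * (a * b * a) * c
  | 2, 0 => a * b * a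
  | 2, 1 => a * (c * (a * b * a) * c) * a
  | 2, 2 => b * c * b

theorem actA_a (a b c : G) (ha : a * a = 1) :
    ∀ i j : ZMod 3, a * tblA a b c i j * a = tblA a b c (-i : ZMod 3) (-j : ZMod 3) := by
  have ha' : ∀ x, a * (a * x) = x := fun x => by rw [← mul_assoc, ha, one_mul]
  intro i j
  rcases Cfsg.Agent.Helper27.Fis.zmod3_cases i with rfl | rfl | rfl <;>
    rcases Cfsg.Agent.Helper27.Fis.zmod3_cases j with rfl | rfl | rfl
  · show a * a * a = a
    simp only [mul_assoc, ha, ha', mul_one, one_mul]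
  · show a * c * a = a * c * a
    rfl
  · show a * (a * c * a) * a = c
    simp only [mul_assoc, ha, ha', mul_one, one_mul]
  · show a * b * a = a * b * a
    rfl
  · show a * (a * (b * c * b) * a) * a = b * c * b
    simp only [mul_assoc, ha, ha', mul_one, one_mul]
  · show a * (c * (a * b * a) * c) * a = a * (c * (a * b * a) * c) * a
    rfl
  · show a * (a * b * a) * a = b
    simp only [mul_assoc, ha, ha', mul_one, one_mul]
  · show a * (a * (c * (a * b * a) * c) * a) * a = c * (a * b * a) * c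
    simp only [mul_assoc, ha, ha', mul_one, one_mul]
  · show a * (b * c * b) * a = a * (b * c * b) * a
    rfl

theorem actA_b (a b c : G) (ha : a * a = 1) (hb : b * b = 1)
    (hab : a * b * a = b * a * b) (huc : (a * b * a) * c * (a * b * a) = c * (a * b * a) * c) :
    ∀ i j : ZMod 3, b * tblA a b c i j * b = tblA a b c (-1 - i : ZMod 3) (-j : ZMod 3) := by
  have ha' : ∀ x, a * (a * x) = x := fun x => by rw [← mul_assoc, ha, one_mul]
  have hb' : ∀ x, b * (b * x) = x := fun x => by rw [← mul_assoc, hb, one_mul]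
  have N1 : b * (a * c * a) * b = a * (c * (a * b * a) * c) * a := by
    rw [← huc]
    simp only [mul_assoc, ha, ha', mul_one, one_mul]
  have N2 : b * (a * (b * c * b) * a) * b = c * (a * b * a) * c := by
    rw [← huc]
    have e : b * (a * (b * c * b) * a) * b = (b * a * b) * c * (b * a * b) := by
      simp only [mul_assoc]
    rw [e, ← hab]
  intro i j
  rcases Cfsg.Agent.Helper27.Fis.zmod3_cases i with rfl | rfl | rfl <;>
    rcases Cfsg.Agent.Helper27.Fis.zmod3_cases j with rfl | rfl | rfl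
  · show b * a * b = a * b * a
    exact hab.symm
  · show b * c * b = b * c * b
    rfl
  · show b * (a * c * a) * b = a * (c * (a * b * a) * c) * a
    exact N1
  · show b * b * b = b
    simp only [mul_assoc, hb, hb', mul_one, one_mul]
  · show b * (a * (b * c * b) * a) * b = c * (a * b * a) * c
    exact N2
  · show b * (c * (a * b * a) * c) * b = a * (b * c * b) * a
    exact flip_conj hb N2
  · show b * (a * b * a) * b = a
    rw [hab]
    simp only [mul_assoc, hb, hb', mul_one, one_mul]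
  · show b * (a * (c * (a * b * a) * c) * a) * b = a * c * a
    exact flip_conj hb N1
  · show b * (b * c * b) * b = c
    simp only [mul_assoc, hb, hb', mul_one, one_mul]

theorem actA_c (a b c : G) (hc : c * c = 1)
    (hac : a * c * a = c * a * c) (hbc : b * c * b = c * b * c) :
    ∀ i j : ZMod 3, c * tblA a b c i j * c = tblA a b c (-i : ZMod 3) (-1 - j : ZMod 3) := by
  have hc' : ∀ x, c * (c * x) = x := fun x => by rw [← mul_assoc, hc, one_mul]
  have N3 : c * (a * (b * c * b) * a) * c = a * (c * (a * b * a) * c) * a := by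
    rw [hbc]
    have e : c * (a * (c * b * c) * a) * c = (c * a * c) * b * (c * a * c) := by
      simp only [mul_assoc]
    rw [e, ← hac]
    simp only [mul_assoc]
  intro i j
  rcases Cfsg.Agent.Helper27.Fis.zmod3_cases i with rfl | rfl | rfl <;>
    rcases Cfsg.Agent.Helper27.Fis.zmod3_cases j with rfl | rfl | rfl
  · show c * a * c = a * c * a
    exact hac.symm
  · show c * c * c = c
    simp only [mul_assoc, hc, hc', mul_one, one_mul]
  · show c * (a * c * a) * c = a
    rw [hac]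
    simp only [mul_assoc, hc, hc', mul_one, one_mul]
  · show c * b * c = b * c * b
    exact hbc.symm
  · show c * (a * (b * c * b) * a) * c = a * (c * (a * b * a) * c) * a
    exact N3
  · show c * (c * (a * b * a) * c) * c = a * b * a
    simp only [mul_assoc, hc, hc', mul_one, one_mul]
  · show c * (a * b * a) * c = c * (a * b * a) * c
    rfl
  · show c * (a * (c * (a * b * a) * c) * a) * c = a * (b * c * b) * a
    exact flip_conj hc N3
  · show c * (b * c * b) * c = b
    rw [hbc]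
    simp only [mul_assoc, hc, hc', mul_one, one_mul]

theorem tblA_mem {D : Set G} (a b c : G) (ha : a ∈ D) (hb : b ∈ D) (hc : c ∈ D)
    (cj : ∀ g ∈ D, ∀ d ∈ D, g * d * g ∈ D) : ∀ i j : ZMod 3, tblA a b c i j ∈ D := by
  intro i j
  rcases Cfsg.Agent.Helper27.Fis.zmod3_cases i with rfl | rfl | rfl <;>
    rcases Cfsg.Agent.Helper27.Fis.zmod3_cases j with rfl | rfl | rfl
  · exact ha
  · exact hc
  · exact cj a ha c hc
  · exact hb
  · exact cj a ha _ (cj b hb c hc)
  · exact cj c hc _ (cj a ha b hb)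
  · exact cj a ha b hb
  · exact cj a ha _ (cj c hc _ (cj a ha b hb))
  · exact cj b hb c hc

/-- the parametrisation of the nine points -/
def phiA (a b c : G) (y : Fin 2 → ZMod 3) : G := tblA a b c (y 0) (y 1)

/-- reflection in the affine plane of order three -/
def rhoA (w v : Fin 2 → ZMod 3) : Fin 2 → ZMod 3 := -w - v

theorem indA (P : (Fin 2 → ZMod 3) → Prop) (h00 : P ![0, 0]) (h10 : P ![1, 0]) (h01 : P ![0, 1])
    (hcl : ∀ v w, P v → P w → P (rhoA w v)) : ∀ y, P y := by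
  have e : ∀ v w u : Fin 2 → ZMod 3, rhoA w v = u → P v → P w → P u :=
    fun v w u h hv hw => h ▸ hcl v w hv hw
  have h20 : P ![2, 0] := e ![0, 0] ![1, 0] _ (by decide) h00 h10
  have h02 : P ![0, 2] := e ![0, 0] ![0, 1] _ (by decide) h00 h01
  have h22 : P ![2, 2] := e ![1, 0] ![0, 1] _ (by decide) h10 h01
  have h12 : P ![1, 2] := e ![2, 0] ![0, 1] _ (by decide) h20 h01
  have h11 : P ![1, 1] := e ![2, 2] ![0, 0] _ (by decide) h22 h00
  have h21 : P ![2, 1] := e ![1, 2] ![0, 0] _ (by decide) h12 h00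
  intro y
  have hy : y = ![y 0, y 1] := by
    funext k
    fin_cases k <;> rfl
  rw [hy]
  rcases Cfsg.Agent.Helper27.Fis.zmod3_cases (y 0) with h | h | h <;>
    rcases Cfsg.Agent.Helper27.Fis.zmod3_cases (y 1) with h' | h' | h' <;>
    rw [h, h'] <;> assumption

theorem h3A : ∀ w v x : Fin 2 → ZMod 3, rhoA (rhoA w v) x = rhoA w (rhoA v (rhoA w x)) := by
  intro w v x
  funext k
  have key : ∀ a b c : ZMod 3, -(-a - b) - c = -a - (-b - (-a - c)) := by decide
  exact key (w k) (v k) (x k)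

/-- the forbidden coincidences -/
def FbA (i j i' j' : ZMod 3) : Prop :=
  (i = 0 ∧ j = 0 ∧ i' = 1 ∧ j' = 0) ∨ (i = 1 ∧ j = 0 ∧ i' = 0 ∧ j' = 0) ∨
  (i = 0 ∧ j = 0 ∧ i' = 0 ∧ j' = 1) ∨ (i = 0 ∧ j = 1 ∧ i' = 0 ∧ j' = 0) ∨
  (i = 1 ∧ j = 0 ∧ i' = 0 ∧ j' = 1) ∨ (i = 0 ∧ j = 1 ∧ i' = 1 ∧ j' = 0) ∨
  (i = 0 ∧ j = 1 ∧ i' = 2 ∧ j' = 0) ∨ (i = 2 ∧ j = 0 ∧ i' = 0 ∧ j' = 1)

instance (i j i' j' : ZMod 3) : Decidable (FbA i j i' j') := by
  unfold FbA; infer_instance

theorem injA_aux : ∀ p0 p1 q0 q1 : ZMod 3, (p0 ≠ q0 ∨ p1 ≠ q1) →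
    ∃ x0 x1 : ZMod 3, FbA (-x0 - p0) (-x1 - p1) (-x0 - q0) (-x1 - q1) := by
  decide

theorem FbA_ne (a b c : G) (hab : a ≠ b) (hac : a ≠ c) (hbc : b ≠ c) (hcu : c ≠ a * b * a)
    {i j i' j' : ZMod 3} (h : FbA i j i' j') : tblA a b c i j ≠ tblA a b c i' j' := by
  rcases h with ⟨rfl, rfl, rfl, rfl⟩ | ⟨rfl, rfl, rfl, rfl⟩ | ⟨rfl, rfl, rfl, rfl⟩ |
    ⟨rfl, rfl, rfl, rfl⟩ | ⟨rfl, rfl, rfl, rfl⟩ | ⟨rfl, rfl, rfl, rfl⟩ | ⟨rfl, rfl, rfl, rfl⟩ |
    ⟨rfl, rfl, rfl, rfl⟩
  · exact hab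
  · exact hab.symm
  · exact hac
  · exact hac.symm
  · exact hbc
  · exact hbc.symm
  · exact hcu
  · exact hcu.symm

theorem hMA : ∀ k : Set (Fin 2 → ZMod 3), k ∈ affinePlaneThree ↔
    ∃ v w, rhoA w v ≠ v ∧ k = {v, w, rhoA w v} := by
  intro k
  constructor
  · rintro ⟨v, d, hd, rfl⟩
    refine ⟨v, v + d, ?_, ?_⟩
    · intro h
      apply hd
      funext t
      have h2 := congrFun h t
      simp only [rhoA, Pi.sub_apply, Pi.neg_apply, Pi.add_apply] at h2
      have h3 := Cfsg.Agent.Helper27.Fis.zmod3_c _ _ h2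
      simpa using h3.symm
    · have h := Cfsg.Agent.Helper27.Fis.affine_line v (v + d)
      rw [add_sub_cancel_left] at h
      rw [← h]
      unfold rhoA
      rw [neg_sub_comm]
  · rintro ⟨v, w, hne, rfl⟩
    have hwv : w ≠ v := by
      rintro rfl
      apply hne
      funext t
      simp only [rhoA, Pi.sub_apply, Pi.neg_apply]
      exact Cfsg.Agent.Helper27.Fis.zmod3_a _
    refine ⟨v, w - v, sub_ne_zero.2 hwv, ?_⟩
    rw [← Cfsg.Agent.Helper27.Fis.affine_line v w]
    unfold rhoA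
    rw [neg_sub_comm]

theorem affine_case {D : Set G} (hD : IsThreeTranspositionGroup D) (a b c : G)
    (ha : a ∈ D) (hb : b ∈ D) (hc : c ∈ D)
    (hab : ¬ Commute a b) (hac : ¬ Commute a c) (hbc : ¬ Commute b c)
    (huc : ¬ Commute (a * b * a) c) (l m : Set D)
    (hl : ∀ z : D, z ∈ l ↔ ((z : G) = a ∨ (z : G) = b ∨ (z : G) = b * a * b⁻¹))
    (hm : ∀ z : D, z ∈ m ↔ ((z : G) = a ∨ (z : G) = c ∨ (z : G) = c * a * c⁻¹)) :
    LineSystem.Isomorphic (LineSystem.restrict (threeTranspositionLines D)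
      (LineSystem.span (threeTranspositionLines D) (l ∪ m))) affinePlaneThree := by
  have hT := hD.1
  have a2 := sq_of_mem hT ha
  have b2 := sq_of_mem hT hb
  have c2 := sq_of_mem hT hc
  have ia := inv_of_mem hT ha
  have ib := inv_of_mem hT hb
  have ic := inv_of_mem hT hc
  have cj : ∀ g ∈ D, ∀ d ∈ D, g * d * g ∈ D := by
    intro g hg d hd
    have := hD.2.1 g d hd
    rwa [inv_of_mem hT hg] at this
  have hu : a * b * a ∈ D := cj a ha b hb
  have bab := braid hT ha hb hab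
  have bac := braid hT ha hc hac
  have bbc := braid hT hb hc hbc
  have buc := braid hT hu hc huc
  have hφD : ∀ y, phiA a b c y ∈ D := fun y => tblA_mem a b c ha hb hc cj (y 0) (y 1)
  have gA : ∀ y, phiA a b c ![0, 0] * phiA a b c y * (phiA a b c ![0, 0])⁻¹ =
      phiA a b c (rhoA ![0, 0] y) := by
    intro y
    show a * tblA a b c (y 0) (y 1) * a⁻¹ = tblA a b c (-0 - y 0 : ZMod 3) (-0 - y 1 : ZMod 3)
    rw [ia, actA_a a b c a2, neg_zero, zero_sub, zero_sub]
  have gB : ∀ y, phiA a b c ![1, 0] * phiA a b c y * (phiA a b c ![1, 0])⁻¹ =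
      phiA a b c (rhoA ![1, 0] y) := by
    intro y
    show b * tblA a b c (y 0) (y 1) * b⁻¹ = tblA a b c (-1 - y 0 : ZMod 3) (-0 - y 1 : ZMod 3)
    rw [ib, actA_b a b c a2 b2 bab buc, neg_zero, zero_sub]
  have gC : ∀ y, phiA a b c ![0, 1] * phiA a b c y * (phiA a b c ![0, 1])⁻¹ =
      phiA a b c (rhoA ![0, 1] y) := by
    intro y
    show c * tblA a b c (y 0) (y 1) * c⁻¹ = tblA a b c (-0 - y 0 : ZMod 3) (-1 - y 1 : ZMod 3)
    rw [ic, actA_c a b c c2 bac bbc, neg_zero, zero_sub]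
  have h1 := h1_of_gens hT rhoA (phiA a b c) hφD ![0, 0] ![1, 0] ![0, 1] gA gB gC indA h3A
  have hne_ab : a ≠ b := fun h => hab (by rw [h])
  have hne_ac : a ≠ c := fun h => hac (by rw [h])
  have hne_bc : b ≠ c := fun h => hbc (by rw [h])
  have hne_cu : c ≠ a * b * a := fun h => huc (by rw [← h])
  have hinj : Function.Injective (phiA a b c) := by
    intro p q hpq
    by_contra hne
    have hd : p 0 ≠ q 0 ∨ p 1 ≠ q 1 := by
      by_contra h
      apply hne
      funext k
      fin_cases k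
      · exact not_not.1 (fun h' => h (Or.inl h'))
      · exact not_not.1 (fun h' => h (Or.inr h'))
    obtain ⟨x0, x1, hF⟩ := injA_aux _ _ _ _ hd
    have e1 := h1 ![x0, x1] p
    have e2 := h1 ![x0, x1] q
    rw [hpq, e2] at e1
    exact FbA_ne a b c hne_ab hne_ac hne_bc hne_cu hF e1.symm
  have hl' : ∀ z : D, z ∈ l ↔ ((z : G) = phiA a b c ![0, 0] ∨ (z : G) = phiA a b c ![1, 0] ∨
      (z : G) = phiA a b c (rhoA ![1, 0] ![0, 0])) := by
    intro z
    rw [hl z, ← h1]
    rfl
  have hm' : ∀ z : D, z ∈ m ↔ ((z : G) = phiA a b c ![0, 0] ∨ (z : G) = phiA a b c ![0, 1] ∨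
      (z : G) = phiA a b c (rhoA ![0, 1] ![0, 0])) := by
    intro z
    rw [hm z, ← h1]
    rfl
  have hS := span_char hT rhoA (phiA a b c) hφD hinj h1 ![0, 0] ![1, 0] ![0, 1] indA l m hl' hm'
  exact model_iso hT affinePlaneThree rhoA (phiA a b c) hφD hinj h1 hMA _ hS

end Cfsg.Agent.Helper18.Fsp
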