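import Mathlib
import Cfsg.Agent.Helper18.Fsp

/-!
# 3-transposition lines form a Fischer space: the dual affine plane case (helper18)
-/

set_option autoImplicit false

namespace Cfsg.Agent.Helper18.Fsp

open Cfsg Cfsg.LineSystem Cfsg.Agent.Helper27.Fis

variable {G : Type*} [Group G]

/-- the six points -/
def p01 : DualAffinePoint := ⟨{0, 1}, by decide⟩
/-- second point -/
def p02 : DualAffinePoint := ⟨{0, 2}, by decide⟩
/-- third point -/
def p03 : DualAffinePoint := ⟨{0, 3}, by decide⟩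
/-- fourth point -/
def p12 : DualAffinePoint := ⟨{1, 2}, by decide⟩
/-- fifth point -/
def p13 : DualAffinePoint := ⟨{1, 3}, by decide⟩
/-- sixth point -/
def p23 : DualAffinePoint := ⟨{2, 3}, by decide⟩

theorem da_cases : ∀ s : DualAffinePoint,
    s = p01 ∨ s = p02 ∨ s = p03 ∨ s = p12 ∨ s = p13 ∨ s = p23 := by decide

/-- the table for the dual affine plane -/
def tblD (a b c : G) (s : DualAffinePoint) : G :=
  if (0 : Fin 4) ∈ s.1 then (if (1 : Fin 4) ∈ s.1 then a else if (2 : Fin 4) ∈ s.1 then b else c)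
  else (if (3 : Fin 4) ∈ s.1 then (if (1 : Fin 4) ∈ s.1 then a * c * a else b * c * b)
    else a * b * a)

theorem tblD_p01 (a b c : G) : tblD a b c p01 = a := by simp [tblD, p01]
theorem tblD_p02 (a b c : G) : tblD a b c p02 = b := by simp [tblD, p02]
theorem tblD_p03 (a b c : G) : tblD a b c p03 = c := by simp [tblD, p03]
theorem tblD_p12 (a b c : G) : tblD a b c p12 = a * b * a := by simp [tblD, p12]
theorem tblD_p13 (a b c : G) : tblD a b c p13 = a * c * a := by simp [tblD, p13]
theorem tblD_p23 (a b c : G) : tblD a b c p23 = b * c * b := by simp [tblD, p23]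

theorem h3D : ∀ w v x : DualAffinePoint, daMap (daMap w v) x = daMap w (daMap v (daMap w x)) := by
  decide

theorem indD (P : DualAffinePoint → Prop) (h01 : P p01) (h02 : P p02) (h03 : P p03)
    (hcl : ∀ v w, P v → P w → P (daMap w v)) : ∀ y, P y := by
  have e : ∀ v w u : DualAffinePoint, daMap w v = u → P v → P w → P u :=
    fun v w u h hv hw => h ▸ hcl v w hv hw
  have h12 : P p12 := e p01 p02 _ (by decide) h01 h02
  have h13 : P p13 := e p01 p03 _ (by decide) h01 h03
  have h23 : P p23 := e p02 p03 _ (by decide) h02 h03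
  intro y
  rcases da_cases y with rfl | rfl | rfl | rfl | rfl | rfl <;> assumption

theorem hMD_aux1 : ∀ i : Fin 4, ∃ v w : DualAffinePoint, daMap w v ≠ v ∧
    ∀ s : DualAffinePoint, i ∉ s.1 ↔ (s = v ∨ s = w ∨ s = daMap w v) := by decide

theorem hMD_aux2 : ∀ v w : DualAffinePoint, daMap w v ≠ v → ∃ i : Fin 4,
    ∀ s : DualAffinePoint, i ∉ s.1 ↔ (s = v ∨ s = w ∨ s = daMap w v) := by decide

theorem hMD : ∀ k : Set DualAffinePoint, k ∈ dualAffinePlaneTwo ↔
    ∃ v w, daMap w v ≠ v ∧ k = {v, w, daMap w v} := by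
  intro k
  constructor
  · rintro ⟨i, rfl⟩
    obtain ⟨v, w, hne, h⟩ := hMD_aux1 i
    refine ⟨v, w, hne, ?_⟩
    ext s
    simp only [Set.mem_setOf_eq, Set.mem_insert_iff, Set.mem_singleton_iff]
    exact h s
  · rintro ⟨v, w, hne, rfl⟩
    obtain ⟨i, h⟩ := hMD_aux2 v w hne
    refine ⟨i, ?_⟩
    ext s
    simp only [Set.mem_setOf_eq, Set.mem_insert_iff, Set.mem_singleton_iff]
    exact (h s).symm

/-- the forbidden coincidences -/
def FbD (s t : DualAffinePoint) : Prop :=
  (s = p01 ∧ t = p02) ∨ (s = p02 ∧ t = p01) ∨ (s = p01 ∧ t = p03) ∨ (s = p03 ∧ t = p01) ∨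
  (s = p02 ∧ t = p03) ∨ (s = p03 ∧ t = p02) ∨ (s = p03 ∧ t = p12) ∨ (s = p12 ∧ t = p03)

instance (s t : DualAffinePoint) : Decidable (FbD s t) := by
  unfold FbD; infer_instance

theorem injD_aux : ∀ p q : DualAffinePoint, p ≠ q → ∃ x y z : DualAffinePoint,
    FbD (daMap x (daMap y (daMap z p))) (daMap x (daMap y (daMap z q))) := by
  decide

theorem FbD_ne (a b c : G) (hab : a ≠ b) (hac : a ≠ c) (hbc : b ≠ c) (hcu : c ≠ a * b * a)
    {s t : DualAffinePoint} (h : FbD s t) : tblD a b c s ≠ tblD a b c t := by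
  rcases h with ⟨rfl, rfl⟩ | ⟨rfl, rfl⟩ | ⟨rfl, rfl⟩ | ⟨rfl, rfl⟩ | ⟨rfl, rfl⟩ | ⟨rfl, rfl⟩ |
    ⟨rfl, rfl⟩ | ⟨rfl, rfl⟩
  · rw [tblD_p01, tblD_p02]; exact hab
  · rw [tblD_p01, tblD_p02]; exact hab.symm
  · rw [tblD_p01, tblD_p03]; exact hac
  · rw [tblD_p01, tblD_p03]; exact hac.symm
  · rw [tblD_p02, tblD_p03]; exact hbc
  · rw [tblD_p02, tblD_p03]; exact hbc.symm
  · rw [tblD_p03, tblD_p12]; exact hcu
  · rw [tblD_p03, tblD_p12]; exact hcu.symm

theorem tblD_mem {D : Set G} (a b c : G) (ha : a ∈ D) (hb : b ∈ D) (hc : c ∈ D)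
    (cj : ∀ g ∈ D, ∀ d ∈ D, g * d * g ∈ D) : ∀ s : DualAffinePoint, tblD a b c s ∈ D := by
  intro s
  rcases da_cases s with rfl | rfl | rfl | rfl | rfl | rfl
  · rw [tblD_p01]; exact ha
  · rw [tblD_p02]; exact hb
  · rw [tblD_p03]; exact hc
  · rw [tblD_p12]; exact cj a ha b hb
  · rw [tblD_p13]; exact cj a ha c hc
  · rw [tblD_p23]; exact cj b hb c hc

/-- the consequences of `aba` commuting with `c` -/
theorem dual_rel (a b c : G) (a2 : a * a = 1) (b2 : b * b = 1) (c2 : c * c = 1)
    (hac : a * c * a = c * a * c) (hbc : b * c * b = c * b * c)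
    (hcomm : Commute (a * b * a) c) :
    c * (a * b * a) * c = a * b * a ∧ b * (a * c * a) * b = a * c * a ∧
      a * (b * c * b) * a = b * c * b := by
  have a2' : ∀ x, a * (a * x) = x := fun x => by rw [← mul_assoc, a2, one_mul]
  have b2' : ∀ x, b * (b * x) = x := fun x => by rw [← mul_assoc, b2, one_mul]
  have c2' : ∀ x, c * (c * x) = x := fun x => by rw [← mul_assoc, c2, one_mul]
  have h := congrArg (fun x => a * x * a) hcomm.eq
  simp only [mul_assoc, a2, a2', mul_one] at h
  have hD2 : b * (a * c * a) = (a * c * a) * b := by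
    simp only [mul_assoc]; exact h
  refine ⟨?_, ?_, ?_⟩
  · rw [← hcomm.eq, mul_assoc, c2, mul_one]
  · rw [hD2, mul_assoc, b2, mul_one]
  · rw [hac] at hD2
    have h3 := congrArg (fun x => c * x * c) hD2
    simp only [mul_assoc, c2, c2', mul_one] at h3
    rw [hbc]
    simp only [mul_assoc]
    rw [h3, a2']

theorem actD_a (a b c : G) (a2 : a * a = 1) (h1 : a * (b * c * b) * a = b * c * b) :
    ∀ s : DualAffinePoint, a * tblD a b c s * a = tblD a b c (daMap p01 s) := by
  have a2' : ∀ x, a * (a * x) = x := fun x => by rw [← mul_assoc, a2, one_mul]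
  intro s
  rcases da_cases s with rfl | rfl | rfl | rfl | rfl | rfl
  · rw [show daMap p01 p01 = p01 from by decide, tblD_p01]
    simp only [mul_assoc, a2, a2', mul_one, one_mul]
  · rw [show daMap p01 p02 = p12 from by decide, tblD_p02, tblD_p12]
  · rw [show daMap p01 p03 = p13 from by decide, tblD_p03, tblD_p13]
  · rw [show daMap p01 p12 = p02 from by decide, tblD_p02, tblD_p12]
    simp only [mul_assoc, a2, a2', mul_one, one_mul]
  · rw [show daMap p01 p13 = p03 from by decide, tblD_p03, tblD_p13]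
    simp only [mul_assoc, a2, a2', mul_one, one_mul]
  · rw [show daMap p01 p23 = p23 from by decide, tblD_p23]
    exact h1

theorem actD_b (a b c : G) (b2 : b * b = 1) (hab : a * b * a = b * a * b)
    (h2 : b * (a * c * a) * b = a * c * a) :
    ∀ s : DualAffinePoint, b * tblD a b c s * b = tblD a b c (daMap p02 s) := by
  have b2' : ∀ x, b * (b * x) = x := fun x => by rw [← mul_assoc, b2, one_mul]
  intro s
  rcases da_cases s with rfl | rfl | rfl | rfl | rfl | rfl
  · rw [show daMap p02 p01 = p12 from by decide, tblD_p01, tblD_p12]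
    exact hab.symm
  · rw [show daMap p02 p02 = p02 from by decide, tblD_p02]
    simp only [mul_assoc, b2, b2', mul_one, one_mul]
  · rw [show daMap p02 p03 = p23 from by decide, tblD_p03, tblD_p23]
  · rw [show daMap p02 p12 = p01 from by decide, tblD_p01, tblD_p12, hab]
    simp only [mul_assoc, b2, b2', mul_one, one_mul]
  · rw [show daMap p02 p13 = p13 from by decide, tblD_p13]
    exact h2
  · rw [show daMap p02 p23 = p03 from by decide, tblD_p03, tblD_p23]
    simp only [mul_assoc, b2, b2', mul_one, one_mul]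

theorem actD_c (a b c : G) (c2 : c * c = 1) (hac : a * c * a = c * a * c)
    (hbc : b * c * b = c * b * c) (h3 : c * (a * b * a) * c = a * b * a) :
    ∀ s : DualAffinePoint, c * tblD a b c s * c = tblD a b c (daMap p03 s) := by
  have c2' : ∀ x, c * (c * x) = x := fun x => by rw [← mul_assoc, c2, one_mul]
  intro s
  rcases da_cases s with rfl | rfl | rfl | rfl | rfl | rfl
  · rw [show daMap p03 p01 = p13 from by decide, tblD_p01, tblD_p13]
    exact hac.symm
  · rw [show daMap p03 p02 = p23 from by decide, tblD_p02, tblD_p23]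
    exact hbc.symm
  · rw [show daMap p03 p03 = p03 from by decide, tblD_p03]
    simp only [mul_assoc, c2, c2', mul_one, one_mul]
  · rw [show daMap p03 p12 = p12 from by decide, tblD_p12]
    exact h3
  · rw [show daMap p03 p13 = p01 from by decide, tblD_p01, tblD_p13, hac]
    simp only [mul_assoc, c2, c2', mul_one, one_mul]
  · rw [show daMap p03 p23 = p02 from by decide, tblD_p02, tblD_p23, hbc]
    simp only [mul_assoc, c2, c2', mul_one, one_mul]

theorem dual_case {D : Set G} (hD : IsThreeTranspositionGroup D) (a b c : G)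
    (ha : a ∈ D) (hb : b ∈ D) (hc : c ∈ D)
    (hab : ¬ Commute a b) (hac : ¬ Commute a c) (hbc : ¬ Commute b c)
    (huc : Commute (a * b * a) c) (hne_cu : c ≠ a * b * a) (l m : Set D)
    (hl : ∀ z : D, z ∈ l ↔ ((z : G) = a ∨ (z : G) = b ∨ (z : G) = b * a * b⁻¹))
    (hm : ∀ z : D, z ∈ m ↔ ((z : G) = a ∨ (z : G) = c ∨ (z : G) = c * a * c⁻¹)) :
    LineSystem.Isomorphic (LineSystem.restrict (threeTranspositionLines D)
      (LineSystem.span (threeTranspositionLines D) (l ∪ m))) dualAffinePlaneTwo := by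
  have hT := hD.1
  have a2 := sq_of_mem hT ha
  have b2 := sq_of_mem hT hb
  have c2 := sq_of_mem hT hc
  have ia := inv_of_mem hT ha
  have ib := inv_of_mem hT hb
  have ic := inv_of_mem hT hc
  have cj : ∀ g ∈ D, ∀ d ∈ D, g * d * g ∈ D := by
    intro g hg d hd
    have := hD.2.1 g d hd
    rwa [inv_of_mem hT hg] at this
  have bab := braid hT ha hb hab
  have bac := braid hT ha hc hac
  have bbc := braid hT hb hc hbc
  obtain ⟨r3, r2, r1⟩ := dual_rel a b c a2 b2 c2 bac bbc huc
  have hφD : ∀ y, tblD a b c y ∈ D := tblD_mem a b c ha hb hc cj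
  have gA : ∀ y, tblD a b c p01 * tblD a b c y * (tblD a b c p01)⁻¹ =
      tblD a b c (daMap p01 y) := by
    intro y
    rw [tblD_p01, ia]
    exact actD_a a b c a2 r1 y
  have gB : ∀ y, tblD a b c p02 * tblD a b c y * (tblD a b c p02)⁻¹ =
      tblD a b c (daMap p02 y) := by
    intro y
    rw [tblD_p02, ib]
    exact actD_b a b c b2 bab r2 y
  have gC : ∀ y, tblD a b c p03 * tblD a b c y * (tblD a b c p03)⁻¹ =
      tblD a b c (daMap p03 y) := by
    intro y
    rw [tblD_p03, ic]
    exact actD_c a b c c2 bac bbc r3 y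
  have h1 := h1_of_gens hT daMap (tblD a b c) hφD p01 p02 p03 gA gB gC indD h3D
  have hne_ab : a ≠ b := fun h => hab (by rw [h])
  have hne_ac : a ≠ c := fun h => hac (by rw [h])
  have hne_bc : b ≠ c := fun h => hbc (by rw [h])
  have hinj : Function.Injective (tblD a b c) := by
    intro p q hpq
    by_contra hne
    obtain ⟨x, y, z, hF⟩ := injD_aux p q hne
    apply FbD_ne a b c hne_ab hne_ac hne_bc hne_cu hF
    rw [← h1, ← h1, ← h1, ← h1, ← h1, ← h1, hpq]
  have hl' : ∀ z : D, z ∈ l ↔ ((z : G) = tblD a b c p01 ∨ (z : G) = tblD a b c p02 ∨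
      (z : G) = tblD a b c (daMap p02 p01)) := by
    intro z
    rw [hl z, ← h1, tblD_p01, tblD_p02]
  have hm' : ∀ z : D, z ∈ m ↔ ((z : G) = tblD a b c p01 ∨ (z : G) = tblD a b c p03 ∨
      (z : G) = tblD a b c (daMap p03 p01)) := by
    intro z
    rw [hm z, ← h1, tblD_p01, tblD_p03]
  have hS := span_char hT daMap (tblD a b c) hφD hinj h1 p01 p02 p03 indD l m hl' hm'
  exact model_iso hT dualAffinePlaneTwo daMap (tblD a b c) hφD hinj h1 hMD _ hS

end Cfsg.Agent.Helper18.Fsp
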