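import Mathlib
import Cfsg.Agent.Helper18.SL2Gen

set_option autoImplicit false

/-!
# `SL₂(F)` acting on the projective line (helper18)

The Möbius action of `SL₂(F)` on `OnePoint F` as a homomorphism `slPerm`, its triple
transitivity when every element is a square, and a recognition lemma: a group of
permutations of the projective line that contains the translations and the inversion and
in which only the identity fixes `∞, 0, 1` is the image of `SL₂(F)` (characteristic `2`).
-/

namespace Cfsg.Agent.Helper18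

open Matrix

variable {F : Type*} [Field F]

/-- The action of `SL₂(F)` on the projective line, as a homomorphism. -/
noncomputable def slPerm (F : Type*) [Field F] :
    Matrix.SpecialLinearGroup (Fin 2) F →* Equiv.Perm (OnePoint F) :=
  letI : DecidableEq F := Classical.decEq F
  (MulAction.toPermHom (GL (Fin 2) F) (OnePoint F)).comp Matrix.SpecialLinearGroup.toGL

theorem slPerm_infty_of_eq (A : Matrix.SpecialLinearGroup (Fin 2) F) (h : A.1 1 0 = 0) :
    slPerm F A OnePoint.infty = OnePoint.infty := by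
  let _ : DecidableEq F := Classical.decEq F
  show (Matrix.SpecialLinearGroup.toGL A) • (OnePoint.infty : OnePoint F) = _
  rw [OnePoint.smul_infty_eq_ite]
  exact if_pos h

theorem slPerm_infty_of_ne (A : Matrix.SpecialLinearGroup (Fin 2) F) (h : A.1 1 0 ≠ 0) :
    slPerm F A OnePoint.infty = ((A.1 0 0 / A.1 1 0 : F) : OnePoint F) := by
  let _ : DecidableEq F := Classical.decEq F
  show (Matrix.SpecialLinearGroup.toGL A) • (OnePoint.infty : OnePoint F) = _
  rw [OnePoint.smul_infty_eq_ite]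
  exact if_neg h

theorem slPerm_coe_of_eq (A : Matrix.SpecialLinearGroup (Fin 2) F) (z : F)
    (h : A.1 1 0 * z + A.1 1 1 = 0) :
    slPerm F A (z : OnePoint F) = OnePoint.infty := by
  let _ : DecidableEq F := Classical.decEq F
  show (Matrix.SpecialLinearGroup.toGL A) • (z : OnePoint F) = _
  rw [OnePoint.smul_some_eq_ite]
  exact if_pos h

theorem slPerm_coe_of_ne (A : Matrix.SpecialLinearGroup (Fin 2) F) (z : F)
    (h : A.1 1 0 * z + A.1 1 1 ≠ 0) :
    slPerm F A (z : OnePoint F) =
      (((A.1 0 0 * z + A.1 0 1) / (A.1 1 0 * z + A.1 1 1) : F) : OnePoint F) := by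
  let _ : DecidableEq F := Classical.decEq F
  show (Matrix.SpecialLinearGroup.toGL A) • (z : OnePoint F) = _
  rw [OnePoint.smul_some_eq_ite]
  exact if_neg h

/-- The matrix `[[0, -1], [1, 0]]`. -/
def wMat : Matrix.SpecialLinearGroup (Fin 2) F :=
  ⟨!![0, -1; 1, 0], by simp [Matrix.det_fin_two]⟩

/-- The matrix `[[0, -1], [1, -x]]`. -/
def vMat (x : F) : Matrix.SpecialLinearGroup (Fin 2) F :=
  ⟨!![0, -1; 1, -x], by simp [Matrix.det_fin_two]⟩

/-- The matrix `[[a, 0], [0, a⁻¹]]`. -/
def dMat (a : F) (ha : a ≠ 0) : Matrix.SpecialLinearGroup (Fin 2) F :=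
  ⟨!![a, 0; 0, a⁻¹], by simp [Matrix.det_fin_two, ha]⟩

theorem slPerm_uMat_infty (x : F) : slPerm F (uMat x) OnePoint.infty = OnePoint.infty :=
  slPerm_infty_of_eq _ rfl

theorem slPerm_uMat_coe (x z : F) :
    slPerm F (uMat x) (z : OnePoint F) = ((z + x : F) : OnePoint F) := by
  have h : (uMat x).1 1 0 * z + (uMat x).1 1 1 ≠ 0 := by
    rw [uMat_10, uMat_11, zero_mul, zero_add]; exact one_ne_zero
  rw [slPerm_coe_of_ne _ _ h, uMat_00, uMat_01, uMat_10, uMat_11]
  congr 1
  rw [zero_mul, zero_add, div_one, one_mul]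

theorem slPerm_wMat_infty : slPerm F (wMat : Matrix.SpecialLinearGroup (Fin 2) F)
    OnePoint.infty = ((0 : F) : OnePoint F) := by
  have h : (wMat : Matrix.SpecialLinearGroup (Fin 2) F).1 1 0 ≠ 0 := by
    show (1 : F) ≠ 0
    exact one_ne_zero
  rw [slPerm_infty_of_ne _ h]
  congr 1
  show (0 : F) / 1 = 0
  rw [zero_div]

theorem slPerm_wMat_zero : slPerm F (wMat : Matrix.SpecialLinearGroup (Fin 2) F)
    ((0 : F) : OnePoint F) = OnePoint.infty := by
  apply slPerm_coe_of_eq
  show (1 : F) * 0 + 0 = 0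
  rw [mul_zero, add_zero]

theorem slPerm_wMat_coe (z : F) (hz : z ≠ 0) :
    slPerm F (wMat : Matrix.SpecialLinearGroup (Fin 2) F) (z : OnePoint F) =
      ((-z⁻¹ : F) : OnePoint F) := by
  have h : (wMat : Matrix.SpecialLinearGroup (Fin 2) F).1 1 0 * z +
      (wMat : Matrix.SpecialLinearGroup (Fin 2) F).1 1 1 ≠ 0 := by
    show (1 : F) * z + 0 ≠ 0
    rw [one_mul, add_zero]; exact hz
  rw [slPerm_coe_of_ne _ _ h]
  congr 1
  show ((0 : F) * z + -1) / (1 * z + 0) = -z⁻¹
  rw [zero_mul, zero_add, one_mul, add_zero, neg_div, one_div]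

theorem slPerm_vMat (x : F) : slPerm F (vMat x) (x : OnePoint F) = OnePoint.infty := by
  apply slPerm_coe_of_eq
  show (1 : F) * x + -x = 0
  rw [one_mul, add_neg_cancel]

theorem slPerm_dMat_infty (a : F) (ha : a ≠ 0) :
    slPerm F (dMat a ha) OnePoint.infty = OnePoint.infty :=
  slPerm_infty_of_eq _ rfl

theorem slPerm_dMat_coe (a : F) (ha : a ≠ 0) (z : F) :
    slPerm F (dMat a ha) (z : OnePoint F) = ((a * a * z : F) : OnePoint F) := by
  have h : (dMat a ha).1 1 0 * z + (dMat a ha).1 1 1 ≠ 0 := by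
    show (0 : F) * z + a⁻¹ ≠ 0
    rw [zero_mul, zero_add]; exact inv_ne_zero ha
  rw [slPerm_coe_of_ne _ _ h]
  congr 1
  show (a * z + 0) / (0 * z + a⁻¹) = a * a * z
  rw [zero_mul, zero_add, add_zero, div_inv_eq_mul]
  ring

/-- Triple transitivity of `SL₂(F)` on the projective line when every element is a square. -/
theorem slPerm_three_trans (hsq : ∀ t : F, ∃ a, a * a = t) (p q r : OnePoint F)
    (hpq : p ≠ q) (hpr : p ≠ r) (hqr : q ≠ r) :
    ∃ A : Matrix.SpecialLinearGroup (Fin 2) F, slPerm F A p = OnePoint.infty ∧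
      slPerm F A q = ((0 : F) : OnePoint F) ∧ slPerm F A r = ((1 : F) : OnePoint F) := by
  obtain ⟨A₁, hA₁⟩ : ∃ A₁ : Matrix.SpecialLinearGroup (Fin 2) F,
      slPerm F A₁ p = OnePoint.infty := by
    induction p using OnePoint.rec with
    | infty => exact ⟨1, by rw [map_one]; rfl⟩
    | coe x => exact ⟨vMat x, slPerm_vMat x⟩
  have hq₁ : slPerm F A₁ q ≠ OnePoint.infty := by
    intro h
    exact hpq ((slPerm F A₁).injective (hA₁.trans h.symm))
  obtain ⟨y, hy⟩ := OnePoint.ne_infty_iff_exists.mp hq₁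
  have h2p : slPerm F (uMat (-y) * A₁) p = OnePoint.infty := by
    rw [map_mul, Equiv.Perm.mul_apply, hA₁, slPerm_uMat_infty]
  have h2q : slPerm F (uMat (-y) * A₁) q = ((0 : F) : OnePoint F) := by
    rw [map_mul, Equiv.Perm.mul_apply, ← hy, slPerm_uMat_coe, add_neg_cancel]
  have hr₁ : slPerm F (uMat (-y) * A₁) r ≠ OnePoint.infty := by
    intro h
    exact hpr ((slPerm F (uMat (-y) * A₁)).injective (h2p.trans h.symm))
  obtain ⟨t, ht⟩ := OnePoint.ne_infty_iff_exists.mp hr₁
  have ht0 : t ≠ 0 := by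
    intro h
    rw [h] at ht
    exact hqr ((slPerm F (uMat (-y) * A₁)).injective (h2q.trans ht))
  obtain ⟨a, ha⟩ := hsq t⁻¹
  have ha0 : a ≠ 0 := by
    intro h
    rw [h, mul_zero] at ha
    exact inv_ne_zero ht0 ha.symm
  refine ⟨dMat a ha0 * (uMat (-y) * A₁), ?_, ?_, ?_⟩
  · rw [map_mul, Equiv.Perm.mul_apply, h2p, slPerm_dMat_infty]
  · rw [map_mul, Equiv.Perm.mul_apply, h2q, slPerm_dMat_coe, mul_zero]
  · rw [map_mul, Equiv.Perm.mul_apply, ← ht, slPerm_dMat_coe, ha, inv_mul_cancel₀ ht0]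

theorem exists_sq_of_two_eq_zero [Finite F] (h2 : (2 : F) = 0) (t : F) : ∃ a : F, a * a = t := by
  have hinj : Function.Injective (fun a : F => a * a) := by
    intro a b hab
    have hab' : a * a = b * b := hab
    have h0 : (a - b) * (a - b) = 0 := by
      linear_combination hab' + (b * b - a * b) * h2
    have h1 : a - b = 0 := by
      rcases mul_eq_zero.mp h0 with h | h <;> exact h
    exact sub_eq_zero.mp h1
  exact Finite.surjective_of_injective hinj t

theorem slPerm_injective (h2 : (2 : F) = 0) : Function.Injective (slPerm F) := by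
  rw [injective_iff_map_eq_one]
  intro A hA
  have hdet := sl2_det A
  have hc : A.1 1 0 = 0 := by
    by_contra hc
    have h := slPerm_infty_of_ne A hc
    rw [hA] at h
    exact OnePoint.coe_ne_infty _ h.symm
  rw [hc, mul_zero, sub_zero] at hdet
  have hd : A.1 1 1 ≠ 0 := by
    intro h
    rw [h, mul_zero] at hdet
    exact zero_ne_one hdet
  have hb : A.1 0 1 = 0 := by
    have hne : A.1 1 0 * 0 + A.1 1 1 ≠ 0 := by rw [mul_zero, zero_add]; exact hd
    have h := slPerm_coe_of_ne A 0 hne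
    rw [hA] at h
    have h' : (0 : F) = (A.1 0 0 * 0 + A.1 0 1) / (A.1 1 0 * 0 + A.1 1 1) :=
      OnePoint.coe_injective h
    rw [mul_zero, zero_add, mul_zero, zero_add] at h'
    rcases div_eq_zero_iff.mp h'.symm with h'' | h''
    · exact h''
    · exact absurd h'' hd
  have had : A.1 0 0 = A.1 1 1 := by
    have hne : A.1 1 0 * 1 + A.1 1 1 ≠ 0 := by rw [hc, zero_mul, zero_add]; exact hd
    have h := slPerm_coe_of_ne A 1 hne
    rw [hA] at h
    have h' : (1 : F) = (A.1 0 0 * 1 + A.1 0 1) / (A.1 1 0 * 1 + A.1 1 1) :=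
      OnePoint.coe_injective h
    rw [hc, hb, zero_mul, zero_add, mul_one, add_zero] at h'
    exact ((div_eq_one_iff_eq hd).mp h'.symm)
  have ha : A.1 0 0 = 1 := by
    rw [← had] at hdet
    have h0 : (A.1 0 0 - 1) * (A.1 0 0 - 1) = 0 := by
      linear_combination hdet + (1 - A.1 0 0) * h2
    have h1 : A.1 0 0 - 1 = 0 := by
      rcases mul_eq_zero.mp h0 with h | h <;> exact h
    exact sub_eq_zero.mp h1
  apply sl2_ext
  · exact ha
  · exact hb
  · exact hc
  · rw [← had]; exact ha

/-- Recognition of the image of `SL₂(F)` among permutation groups of the projective line. -/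
theorem slPerm_range_eq [Finite F] (h2 : (2 : F) = 0) (R : Subgroup (Equiv.Perm (OnePoint F)))
    (hU : ∀ x : F, slPerm F (uMat x) ∈ R)
    (hW : slPerm F (wMat : Matrix.SpecialLinearGroup (Fin 2) F) ∈ R)
    (hsharp : ∀ σ ∈ R, σ OnePoint.infty = OnePoint.infty →
      σ ((0 : F) : OnePoint F) = ((0 : F) : OnePoint F) →
      σ ((1 : F) : OnePoint F) = ((1 : F) : OnePoint F) → σ = 1) :
    R = (slPerm F).range := by
  have htop : R.comap (slPerm F) = ⊤ := by
    apply sl2_eq_top (R.comap (slPerm F)) (fun x => hU x) wMat hW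
    show (1 : F) ≠ 0
    exact one_ne_zero
  have hle : ∀ A : Matrix.SpecialLinearGroup (Fin 2) F, slPerm F A ∈ R := by
    intro A
    have : A ∈ R.comap (slPerm F) := by rw [htop]; exact Subgroup.mem_top A
    exact this
  apply le_antisymm
  · intro σ hσ
    have hi0 : (OnePoint.infty : OnePoint F) ≠ ((0 : F) : OnePoint F) :=
      (OnePoint.coe_ne_infty _).symm
    have hi1 : (OnePoint.infty : OnePoint F) ≠ ((1 : F) : OnePoint F) :=
      (OnePoint.coe_ne_infty _).symm
    have h01 : ((0 : F) : OnePoint F) ≠ ((1 : F) : OnePoint F) :=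
      fun h => zero_ne_one (OnePoint.coe_injective h)
    obtain ⟨A, hA1, hA2, hA3⟩ := slPerm_three_trans (exists_sq_of_two_eq_zero h2)
      (σ OnePoint.infty) (σ ((0 : F) : OnePoint F)) (σ ((1 : F) : OnePoint F))
      (fun h => hi0 (σ.injective h)) (fun h => hi1 (σ.injective h))
      (fun h => h01 (σ.injective h))
    have h1 : slPerm F A * σ = 1 :=
      hsharp _ (R.mul_mem (hle A) hσ) hA1 hA2 hA3
    have h2' : σ = slPerm F A⁻¹ := by
      rw [map_inv]
      exact (inv_eq_of_mul_eq_one_right h1).symm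
    rw [h2']
    exact ⟨A⁻¹, rfl⟩
  · rintro σ ⟨A, rfl⟩
    exact hle A

/-- A group acting on a set identified with the projective line over a finite field of
characteristic `2`, containing the translations and the inversion, in which only the
identity fixes `∞, 0, 1`, is isomorphic to `SL₂(F)`. -/
theorem sl2_equiv_of_action {G Ω : Type*} [Group G] [MulAction G Ω] (F : Type*) [Field F]
    [Finite F] (h2 : (2 : F) = 0) (pt : OnePoint F → Ω) (hpt : Function.Bijective pt)
    (hsharp : ∀ g : G, g • pt OnePoint.infty = pt OnePoint.infty →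
      g • pt ((0 : F) : OnePoint F) = pt ((0 : F) : OnePoint F) →
      g • pt ((1 : F) : OnePoint F) = pt ((1 : F) : OnePoint F) → g = 1)
    (hU : ∀ x : F, ∃ g : G, ∀ p, g • pt p = pt (slPerm F (uMat x) p))
    (hW : ∃ g : G, ∀ p, g • pt p = pt (slPerm F (wMat : Matrix.SpecialLinearGroup (Fin 2) F) p)) :
    Nonempty (G ≃* Matrix.SpecialLinearGroup (Fin 2) F) := by
  obtain ⟨Ψ, hΨ⟩ : ∃ Ψ : G →* Equiv.Perm (OnePoint F), ∀ g p, pt (Ψ g p) = g • pt p := by
    refine ⟨((Equiv.ofBijective pt hpt).symm.permCongrHom).toMonoidHom.comp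
      (MulAction.toPermHom G Ω), ?_⟩
    intro g p
    show (Equiv.ofBijective pt hpt) ((Equiv.ofBijective pt hpt).symm
      (g • (Equiv.ofBijective pt hpt) p)) = g • pt p
    rw [Equiv.apply_symm_apply]
    rfl
  have hΨinj : Function.Injective Ψ := by
    rw [injective_iff_map_eq_one]
    intro g hg
    apply hsharp g
    · rw [← hΨ, hg]; rfl
    · rw [← hΨ, hg]; rfl
    · rw [← hΨ, hg]; rfl
  have hR : Ψ.range = (slPerm F).range := by
    apply slPerm_range_eq h2
    · intro x
      obtain ⟨g, hg⟩ := hU x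
      refine ⟨g, ?_⟩
      ext p
      apply hpt.1
      rw [hΨ, hg]
    · obtain ⟨g, hg⟩ := hW
      refine ⟨g, ?_⟩
      ext p
      apply hpt.1
      rw [hΨ, hg]
    · rintro σ ⟨g, rfl⟩ h1 h2' h3
      have : g = 1 := by
        apply hsharp g
        · rw [← hΨ, h1]
        · rw [← hΨ, h2']
        · rw [← hΨ, h3]
      rw [this, map_one]
  exact ⟨(MonoidHom.ofInjective hΨinj).trans ((MulEquiv.subgroupCongr hR).trans
    (MonoidHom.ofInjective (slPerm_injective h2)).symm)⟩

end Cfsg.Agent.Helper18
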