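import Mathlib
import Cfsg.Prelude.Def_Characters
import Cfsg.Prelude.Def_Blocks
import Cfsg.Agent.Helper2.CharExtra

/-! Induction wrapper for S4485 (team effort): from the one-step dichotomy
"a proper normal subgroup contains `P`, or `P` is normal" to "`P` is normal". -/

set_option autoImplicit false
open Cfsg

namespace Cfsg.Agent.S4485P

universe u

/-- If `P ≤ K`, `K` is normal in `G` and the Sylow subgroup `P.subtype` of `K` is normal in `K`,
then `P` is normal in `G`. -/
theorem h18_normal_of_sub {G : Type u} [Group G] [Finite G] {p : ℕ} [Fact p.Prime]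
    (P : Sylow p G) (K : Subgroup G) (hK : K.Normal) (hPK : (P : Subgroup G) ≤ K)
    (hN : ((P.subtype hPK : Sylow p K) : Subgroup K).Normal) : (P : Subgroup G).Normal := by
  constructor
  intro x hx g
  have hxK : g * x * g⁻¹ ∈ K := hK.conj_mem x (hPK hx) g
  have hpg : IsPGroup p ((P : Subgroup G).map (MulAut.conj g).toMonoidHom) :=
    P.isPGroup'.map _
  have hpg' : IsPGroup p (((P : Subgroup G).map (MulAut.conj g).toMonoidHom).subgroupOf K) :=
    hpg.comap_subtype
  obtain ⟨Q', hQ'⟩ := hpg'.exists_le_sylow
  have hu : Q' = P.subtype hPK := by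
    have := Sylow.unique_of_normal (P.subtype hPK) hN
    exact Subsingleton.elim _ _
  have h1 : (⟨g * x * g⁻¹, hxK⟩ : K) ∈
      ((P : Subgroup G).map (MulAut.conj g).toMonoidHom).subgroupOf K := by
    rw [Subgroup.mem_subgroupOf]
    exact ⟨x, hx, rfl⟩
  have h2 := hQ' h1
  rw [hu] at h2
  have h3 : (⟨g * x * g⁻¹, hxK⟩ : K) ∈ (P : Subgroup G).subgroupOf K := h2
  rw [Subgroup.mem_subgroupOf] at h3
  exact h3

/-- Induction wrapper for S4485: if in every finite group (of the universe) satisfying the
hypotheses either a proper normal subgroup contains `P` or `P` is normal, then `P` is normal. -/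
theorem h18_induct (p : ℕ) [Fact p.Prime] (n : ℕ)
    (STEP : ∀ (G : Type u) [Group G] [Finite G] (P : Sylow p G),
      (∀ x ∈ (P : Subgroup G), x ≠ 1 → Subgroup.centralizer ({x} : Set G) =
        Subgroup.centralizer ((P : Subgroup G) : Set G)) →
      Nat.card P = p ^ n →
      ∀ χ : G → ℂ, Cfsg.IsCharacter G χ → (∀ g : G, χ g = χ 1 → g = 1) →
      Cfsg.charDegree χ ^ 2 + 1 < p ^ n →
      (∃ K : Subgroup G, K.Normal ∧ K ≠ ⊤ ∧ (P : Subgroup G) ≤ K) ∨ (P : Subgroup G).Normal) :
    ∀ (N : ℕ) (G : Type u) [Group G] [Finite G], Nat.card G = N → ∀ (P : Sylow p G),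
      (∀ x ∈ (P : Subgroup G), x ≠ 1 → Subgroup.centralizer ({x} : Set G) =
        Subgroup.centralizer ((P : Subgroup G) : Set G)) →
      Nat.card P = p ^ n →
      ∀ χ : G → ℂ, Cfsg.IsCharacter G χ → (∀ g : G, χ g = χ 1 → g = 1) →
      Cfsg.charDegree χ ^ 2 + 1 < p ^ n → (P : Subgroup G).Normal := by
  intro N
  induction N using Nat.strong_induction_on with
  | _ N ih =>
    intro G _ _ hcard P hstar hn χ hχ hfaith hdeg
    rcases STEP G P hstar hn χ hχ hfaith hdeg with ⟨K, hKn, hKtop, hPK⟩ | hnorm
    · have hlt : Nat.card K < N := by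
        rw [← hcard]
        exact lt_of_le_of_ne (Subgroup.card_le_card_group K)
          (fun h => hKtop ((Subgroup.card_eq_iff_eq_top K).mp h))
      have hstarK : ∀ x ∈ ((P.subtype hPK : Sylow p K) : Subgroup K), x ≠ 1 →
          Subgroup.centralizer ({x} : Set K) =
            Subgroup.centralizer (((P.subtype hPK : Sylow p K) : Subgroup K) : Set K) := by
        intro x hx hx1
        have hxP : (x : G) ∈ (P : Subgroup G) := by
          rw [Sylow.coe_subtype, Subgroup.mem_subgroupOf] at hx; exact hx
        have hx1' : (x : G) ≠ 1 := fun h => hx1 (Subtype.ext h)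
        have hs := hstar (x : G) hxP hx1'
        ext y
        rw [Subgroup.mem_centralizer_iff, Subgroup.mem_centralizer_iff]
        constructor
        · intro hy z hz
          have hzP : (z : G) ∈ (P : Subgroup G) := by
            rw [SetLike.mem_coe, Sylow.coe_subtype, Subgroup.mem_subgroupOf] at hz; exact hz
          have hyx : (y : G) ∈ Subgroup.centralizer ({(x : G)} : Set G) := by
            rw [Subgroup.mem_centralizer_iff]
            intro w hw
            rw [Set.mem_singleton_iff] at hw
            rw [hw]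
            have h0 := hy x (Set.mem_singleton x)
            exact congrArg Subtype.val h0
          rw [hs, Subgroup.mem_centralizer_iff] at hyx
          exact Subtype.ext (hyx (z : G) hzP)
        · intro hy z hz
          rw [Set.mem_singleton_iff] at hz
          rw [hz]
          exact hy x hx
      have hnK : Nat.card (P.subtype hPK : Sylow p K) = p ^ n := by
        rw [← hn]
        exact Nat.card_congr (Subgroup.subgroupOfEquivOfLe hPK).toEquiv
      have hχK : Cfsg.IsCharacter K (fun k : K => χ k) :=
        Cfsg.Agent.Helper2.isCharacter_restrict K hχ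
      have hfK : ∀ k : K, (fun k : K => χ k) k = (fun k : K => χ k) 1 → k = 1 := by
        intro k hk
        exact Subtype.ext (hfaith (k : G) hk)
      have hdK : Cfsg.charDegree (fun k : K => χ k) ^ 2 + 1 < p ^ n := hdeg
      have hNK := ih (Nat.card K) hlt K rfl (P.subtype hPK) hstarK hnK _ hχK hfK hdK
      exact h18_normal_of_sub P K hKn hPK hNK
    · exact hnorm

end Cfsg.Agent.S4485P
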