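import Mathlib
import Cfsg.Agent.Helper18.P1
import Cfsg.Agent.Helper3.Zassenhaus

set_option autoImplicit false

/-!
# Sharply triply transitive groups of odd degree (helper18)

A finite group acting triply transitively on a set of odd size, in which only the identity
fixes three points, is `SL₂(E)` for a finite field `E` of characteristic `2`, and the set
has `|E| + 1` points.
-/

namespace Cfsg.Agent.Helper18

universe u

/-- A commuting set of endomorphisms of a finite abelian group that is transitive on the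
nonzero elements generates a field, which is the set together with zero and is identified
with the group by evaluation at a nonzero element. -/
theorem closure_field_data {V : Type*} [AddCommGroup V] [Finite V] (S : Set (AddMonoid.End V))
    (hScomm : ∀ x ∈ S, ∀ y ∈ S, x * y = y * x)
    (hSt : ∀ v w : V, v ≠ 0 → w ≠ 0 → ∃ s ∈ S, s v = w)
    (v₀ : V) (hv₀ : v₀ ≠ 0) :
    IsField (Subring.closure S) ∧
    (∀ e e' : Subring.closure S, e.1 v₀ = e'.1 v₀ → e = e') ∧
    (∀ w : V, ∃ e : Subring.closure S, e.1 v₀ = w) ∧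
    (∀ e : Subring.closure S, e ≠ 0 → e.1 ∈ S) := by
  classical
  letI : CommRing (Subring.closure S) := Subring.closureCommRingOfComm hScomm
  have hfinEnd : Finite (AddMonoid.End V) := Finite.of_injective (fun e : AddMonoid.End V => (e : V → V))
    DFunLike.coe_injective
  have hfinE : Finite (Subring.closure S) := inferInstance
  have hZ : ∀ e : Subring.closure S, ∀ v : V, v ≠ 0 → e.1 v = 0 → e = 0 := by
    intro e v hv hev
    apply Subtype.ext
    refine DFunLike.ext _ _ (fun w => ?_)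
    by_cases hw : w = 0
    · rw [hw, map_zero, map_zero]
    · obtain ⟨s, hs, hsv⟩ := hSt v w hv hw
      have hcomm : e * (⟨s, Subring.subset_closure hs⟩ : Subring.closure S) =
          ⟨s, Subring.subset_closure hs⟩ * e := mul_comm _ _
      have hcomm' : e.1 * s = s * e.1 := congrArg Subtype.val hcomm
      have h1 : e.1 w = (e.1 * s) v := by rw [← hsv]; rfl
      rw [h1, hcomm']
      show s (e.1 v) = 0
      rw [hev, map_zero]
  have hnt : Nontrivial (Subring.closure S) := by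
    refine ⟨⟨0, 1, ?_⟩⟩
    intro h01
    have h := congrArg (fun e : Subring.closure S => e.1 v₀) h01
    exact hv₀ h.symm
  have hnzd : NoZeroDivisors (Subring.closure S) := by
    refine ⟨?_⟩
    intro a b hab
    by_cases hb : b = 0
    · exact Or.inr hb
    · left
      have : ∃ v, b.1 v ≠ 0 := by
        by_contra hcon
        apply hb
        apply Subtype.ext
        refine DFunLike.ext _ _ (fun w => ?_)
        by_contra hw
        exact hcon ⟨w, hw⟩
      obtain ⟨v, hv⟩ := this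
      apply hZ a (b.1 v) hv
      have h := congrArg (fun e : Subring.closure S => e.1 v) hab
      exact h
  have hdom : IsDomain (Subring.closure S) := NoZeroDivisors.to_isDomain _
  have hevinj : ∀ e e' : Subring.closure S, e.1 v₀ = e'.1 v₀ → e = e' := by
    intro e e' h
    have h0 : e - e' = 0 := by
      apply hZ (e - e') v₀ hv₀
      show e.1 v₀ - e'.1 v₀ = 0
      rw [h, sub_self]
    exact sub_eq_zero.mp h0
  refine ⟨Finite.isField_of_domain _, hevinj, ?_, ?_⟩
  · intro w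
    by_cases hw : w = 0
    · exact ⟨0, by rw [hw]; rfl⟩
    · obtain ⟨s, hs, hsv⟩ := hSt v₀ w hv₀ hw
      exact ⟨⟨s, Subring.subset_closure hs⟩, hsv⟩
  · intro e he
    have hev : e.1 v₀ ≠ 0 := fun h => he (hZ e v₀ hv₀ h)
    obtain ⟨s, hs, hsv⟩ := hSt v₀ (e.1 v₀) hv₀ hev
    have : (⟨s, Subring.subset_closure hs⟩ : Subring.closure S) = e := hevinj _ _ hsv
    rw [← this]
    exact hs

/-- An involution of a set of odd size with two fixed points has a third one. -/
theorem invol_third_fixed {G Ω : Type*} [Group G] [MulAction G Ω] [Finite Ω]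
    (hodd : Odd (Nat.card Ω)) (g : G) (hg : g * g = 1) (a b : Ω) (hab : a ≠ b)
    (ha : g • a = a) (hb : g • b = b) : ∃ c, c ≠ a ∧ c ≠ b ∧ g • c = c := by
  classical
  letI : Fintype Ω := Fintype.ofFinite Ω
  by_contra hcon
  obtain ⟨F0, hF0⟩ : ∃ F0 : Function.End Ω, ∀ x, F0 x = g • x := ⟨fun x => g • x, fun x => rfl⟩
  have hset : Function.fixedPoints F0 = {a, b} := by
    ext x
    constructor
    · intro hx
      have hx2 : g • x = x := by rw [← hF0]; exact hx
      by_contra hx'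
      apply hcon
      exact ⟨x, fun h => hx' (Or.inl h), fun h => hx' (Or.inr h), hx2⟩
    · rintro (rfl | rfl)
      · show F0 x = x
        rw [hF0]; exact ha
      · show F0 x = x
        rw [hF0]; exact hb
  have hp2 : Fact (Nat.Prime 2) := ⟨Nat.prime_two⟩
  have hf : F0 ^ 2 ^ 1 = 1 := by
    rw [pow_one, pow_two]
    funext x
    show F0 (F0 x) = x
    rw [hF0, hF0, ← mul_smul, hg, one_smul]
  have h := Equiv.Perm.card_fixedPoints_modEq (f := F0) hf
  rw [← Nat.card_eq_fintype_card, ← Nat.card_eq_fintype_card] at h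
  have h2 : Nat.card (Function.fixedPoints F0) = 2 := by
    rw [Nat.card_coe_set_eq, hset, Set.ncard_pair hab]
  rw [h2] at h
  obtain ⟨m, hm⟩ := hodd
  rw [hm] at h
  unfold Nat.ModEq at h
  omega

/-- The structure of a sharply triply transitive group of odd degree: the points are
identified with a projective line over a finite field of characteristic `2` in such a way
that the group contains the translations and the inversion. -/
theorem sharp3_data {G : Type u} {Ω : Type*} [Group G] [Finite G] [MulAction G Ω] [Finite Ω]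
    (hodd : Odd (Nat.card Ω)) (oi o0 o1 : Ω) (hi0 : oi ≠ o0) (hi1 : oi ≠ o1) (h01 : o0 ≠ o1)
    (h3t : ∀ a b c a' b' c' : Ω, a ≠ b → a ≠ c → b ≠ c → a' ≠ b' → a' ≠ c' → b' ≠ c' →
      ∃ g : G, g • a = a' ∧ g • b = b' ∧ g • c = c')
    (h3s : ∀ (g : G) (a b c : Ω), a ≠ b → a ≠ c → b ≠ c → g • a = a → g • b = b → g • c = c →
      g = 1) :
    ∃ (E : Type u) (_ : Field E) (_ : Finite E) (pt : OnePoint E → Ω), (2 : E) = 0 ∧
      Function.Bijective pt ∧ pt OnePoint.infty = oi ∧ pt ((0 : E) : OnePoint E) = o0 ∧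
      pt ((1 : E) : OnePoint E) = o1 ∧
      (∀ x : E, ∃ g : G, ∀ p, g • pt p = pt (slPerm E (uMat x) p)) ∧
      (∃ g : G, ∀ p, g • pt p =
        pt (slPerm E (wMat : Matrix.SpecialLinearGroup (Fin 2) E) p)) := by
  classical
  have par : ∀ g : G, g * g = 1 → ∀ a b : Ω, a ≠ b → g • a = a → g • b = b → g = 1 := by
    intro g hg a b hab ha hb
    obtain ⟨c, hca, hcb, hc⟩ := invol_third_fixed hodd g hg a b hab ha hb
    exact h3s g a b c hab (Ne.symm hca) (Ne.symm hcb) ha hb hc
  -- the stabilizer of `oi` is transitive on the other points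
  have hΓt : ∀ x : Ω, x ≠ oi → ∃ γ : G, γ • oi = oi ∧ γ • o0 = x := by
    intro x hx
    by_cases hx0 : x = o0
    · exact ⟨1, one_smul _ _, by rw [one_smul, hx0]⟩
    · by_cases hx1 : x = o1
      · obtain ⟨g, h1, h2, -⟩ := h3t oi o0 o1 oi o1 o0 hi0 hi1 h01 hi1 hi0 (Ne.symm h01)
        exact ⟨g, h1, by rw [h2, hx1]⟩
      · obtain ⟨g, h1, h2, -⟩ := h3t oi o0 o1 oi x o1 hi0 hi1 h01 (Ne.symm hx) hi1 hx1
        exact ⟨g, h1, h2⟩
  obtain ⟨K, hK1, hK2, hK3, hK4, hK5⟩ : ∃ K : Subgroup G, (∀ k ∈ K, k • oi = oi) ∧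
      (∀ k ∈ K, ∀ x : Ω, x ≠ oi → k • x = x → k = 1) ∧
      (∀ x : Ω, x ≠ oi → ∃ k ∈ K, k • o0 = x) ∧
      (∀ g : G, g • oi = oi → ∀ k ∈ K, g * k * g⁻¹ ∈ K) ∧
      (∀ g : G, g • oi = oi → (∀ x : Ω, x ≠ oi → g • x ≠ x) → g ∈ K) := by
    by_cases hbot : MulAction.stabilizer (MulAction.stabilizer G oi) o0 = ⊥
    · refine ⟨MulAction.stabilizer G oi, fun k hk => hk, ?_, ?_, ?_, fun g hg _ => hg⟩
      · intro k hk x hx hkx
        obtain ⟨γ, hγi, hγ0⟩ := hΓt x hx
        have hki : k • oi = oi := hk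
        have hmemi : (γ⁻¹ * k * γ) • oi = oi := by
          rw [mul_smul, mul_smul, hγi, hki, inv_smul_eq_iff, hγi]
        have hmem : (⟨γ⁻¹ * k * γ, hmemi⟩ : MulAction.stabilizer G oi) ∈
            MulAction.stabilizer (MulAction.stabilizer G oi) o0 := by
          show (γ⁻¹ * k * γ) • o0 = o0
          rw [mul_smul, mul_smul, hγ0, hkx, inv_smul_eq_iff, hγ0]
        rw [hbot, Subgroup.mem_bot] at hmem
        have h1 : γ⁻¹ * k * γ = 1 := congrArg Subtype.val hmem
        calc k = γ * (γ⁻¹ * k * γ) * γ⁻¹ := by group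
          _ = 1 := by rw [h1]; group
      · intro x hx
        obtain ⟨γ, hγi, hγ0⟩ := hΓt x hx
        exact ⟨γ, hγi, hγ0⟩
      · intro g hg k hk
        exact (MulAction.stabilizer G oi).mul_mem ((MulAction.stabilizer G oi).mul_mem hg hk)
          ((MulAction.stabilizer G oi).inv_mem hg)
    · have hfr1 : ∀ s : MulAction.stabilizer G oi, s ≠ 1 → ∀ g : MulAction.stabilizer G oi,
          s • o0 = o0 → s • (g • o0) = g • o0 → g • o0 = o0 := by
        intro s hs g hs0 hsg
        by_contra hne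
        apply hs
        apply Subtype.ext
        have hgi : (g : G) • oi = oi := g.2
        refine h3s (s : G) oi o0 ((g : G) • o0) hi0 ?_ (Ne.symm hne) s.2 hs0 hsg
        intro h
        have h' : (g : G) • oi = (g : G) • o0 := by rw [hgi]; exact h
        exact hi0 (smul_left_cancel _ h')
      have hfr3 : ∃ s : MulAction.stabilizer G oi, s • o0 ≠ o0 := by
        obtain ⟨γ, hγi, hγ0⟩ := hΓt o1 (Ne.symm hi1)
        exact ⟨⟨γ, hγi⟩, fun h => h01 (h.symm.trans hγ0)⟩
      obtain ⟨K₀, hKn, hKfpf, hKtr, hKmem⟩ :=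
        Cfsg.Agent.Helper3.frob_kernel (S := MulAction.stabilizer G oi) o0 hfr1 hbot hfr3
      refine ⟨K₀.map (MulAction.stabilizer G oi).subtype, ?_, ?_, ?_, ?_, ?_⟩
      · rintro k ⟨k', hk', rfl⟩
        exact k'.2
      · rintro k ⟨k', hk', rfl⟩ x hx hkx
        by_contra hne
        obtain ⟨γ, hγi, hγ0⟩ := hΓt x hx
        have hk'1 : k' ≠ 1 := fun h => hne (by rw [h]; rfl)
        apply hKfpf k' hk' hk'1 ⟨γ, hγi⟩
        show (k' : G) • (γ • o0) = γ • o0
        rw [hγ0]; exact hkx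
      · intro x hx
        obtain ⟨γ, hγi, hγ0⟩ := hΓt x hx
        obtain ⟨k, hk, hk0⟩ := hKtr ⟨γ, hγi⟩
        exact ⟨k.1, ⟨k, hk, rfl⟩, hk0.trans hγ0⟩
      · rintro g hg k ⟨k', hk', rfl⟩
        exact ⟨⟨g, hg⟩ * k' * ⟨g, hg⟩⁻¹, hKn.conj_mem k' hk' ⟨g, hg⟩, rfl⟩
      · intro g hg hfpf
        refine ⟨⟨g, hg⟩, hKmem ⟨g, hg⟩ ?_, rfl⟩
        intro γ
        apply hfpf
        intro h
        have h' : (γ : G) • o0 = (γ : G) • oi := h.trans γ.2.symm
        exact hi0 (smul_left_cancel _ h').symm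
  have hKi : ∀ k ∈ K, k • o0 ≠ oi := by
    intro k hk h
    have h' : k • o0 = k • oi := by rw [h]; exact (hK1 k hk).symm
    exact hi0 (smul_left_cancel _ h').symm
  have reg : ∀ n ∈ K, n • o0 = o0 → n = 1 := fun n hn h => hK2 n hn o0 (Ne.symm hi0) h
  have reg2 : ∀ n ∈ K, ∀ m ∈ K, n • o0 = m • o0 → n = m := by
    intro n hn m hm hx
    have h := reg (m⁻¹ * n) (K.mul_mem (K.inv_mem hm) hn) (by rw [mul_smul, hx, inv_smul_smul])
    exact (inv_mul_eq_one.mp h).symm
  -- `K` has exponent two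
  have hsq : ∀ k ∈ K, k * k = 1 := by
    intro k hk
    by_cases hk1 : k = 1
    · rw [hk1, one_mul]
    · have hk0 : k • o0 ≠ o0 := fun h => hk1 (reg k hk h)
      have hki : k • o0 ≠ oi := hKi k hk
      obtain ⟨g, hgi, hg0, hgk⟩ := h3t oi o0 (k • o0) oi (k • o0) o0 hi0 (Ne.symm hki)
        (Ne.symm hk0) (Ne.symm hki) hi0 hk0
      have hgg : g * g = 1 := by
        apply h3s (g * g) oi o0 (k • o0) hi0 (Ne.symm hki) (Ne.symm hk0)
        · rw [mul_smul, hgi, hgi]
        · rw [mul_smul, hg0, hgk]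
        · rw [mul_smul, hgk, hg0]
      have hgK : g ∈ K := by
        apply hK5 g hgi
        intro x hx hgx
        have hg1 : g = 1 := par g hgg oi x (Ne.symm hx) hgi hgx
        rw [hg1, one_smul] at hg0
        exact hk0 hg0.symm
      have : g = k := reg2 g hgK k hk hg0
      rw [← this]; exact hgg
  have hcomm : ∀ n ∈ K, ∀ m ∈ K, n * m = m * n := by
    intro n hn m hm
    have h1 := hsq (m * n) (K.mul_mem hm hn)
    calc n * m = (m * m) * (n * m) * (n * n) := by rw [hsq m hm, hsq n hn, one_mul, mul_one]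
      _ = m * ((m * n) * (m * n)) * n := by group
      _ = m * n := by rw [h1, mul_one]
  -- the inversion
  obtain ⟨s, hsi, hs0, hs1⟩ := h3t oi o0 o1 o0 oi o1 hi0 hi1 h01 (Ne.symm hi0) h01 hi1
  have hss : s * s = 1 := by
    apply h3s (s * s) oi o0 o1 hi0 hi1 h01
    · rw [mul_smul, hsi, hs0]
    · rw [mul_smul, hs0, hsi]
    · rw [mul_smul, hs1, hs1]
  have hs_ne : s ≠ 1 := by
    intro h
    rw [h, one_smul] at hsi
    exact hi0 hsi
  have hsinv : s⁻¹ = s := inv_eq_of_mul_eq_one_right hss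
  -- the two-point stabilizer is inverted by `s`
  have hHinv : ∀ h : G, h • oi = oi → h • o0 = o0 → s * h * s⁻¹ = h⁻¹ := by
    obtain ⟨H, hH⟩ : ∃ H : Subgroup G, ∀ h, h ∈ H ↔ h • oi = oi ∧ h • o0 = o0 :=
      ⟨MulAction.stabilizer G oi ⊓ MulAction.stabilizer G o0, fun h => Iff.rfl⟩
    have hsH : ∀ h ∈ H, s * h * s⁻¹ ∈ H := by
      intro h hh
      obtain ⟨h1, h2⟩ := (hH h).mp hh
      rw [hH, hsinv]
      constructor
      · rw [mul_smul, mul_smul, hsi, h2, hs0]
      · rw [mul_smul, mul_smul, hs0, h1, hsi]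
    obtain ⟨θ, hθ⟩ : ∃ θ : H → H, ∀ h : H,
        ((θ h : H) : G) = (h : G)⁻¹ * (s * (h : G) * s⁻¹) :=
      ⟨fun h => ⟨(h : G)⁻¹ * (s * (h : G) * s⁻¹), H.mul_mem (H.inv_mem h.2) (hsH h h.2)⟩,
        fun h => rfl⟩
    have hθinj : Function.Injective θ := by
      intro h h' hhh
      have e : (h : G)⁻¹ * (s * (h : G) * s⁻¹) = (h' : G)⁻¹ * (s * (h' : G) * s⁻¹) := by
        rw [← hθ, ← hθ, hhh]
      obtain ⟨d, hd⟩ : ∃ d : G, d = (h' : G) * (h : G)⁻¹ := ⟨_, rfl⟩
      have hds : d * s = s * d := by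
        have e2 : (h : G)⁻¹ * s * (h : G) = (h' : G)⁻¹ * s * (h' : G) := by
          calc (h : G)⁻¹ * s * (h : G) = (h : G)⁻¹ * (s * (h : G) * s⁻¹) * s := by group
            _ = (h' : G)⁻¹ * (s * (h' : G) * s⁻¹) * s := by rw [e]
            _ = (h' : G)⁻¹ * s * (h' : G) := by group
        rw [hd]
        calc (h' : G) * (h : G)⁻¹ * s
            = (h' : G) * ((h : G)⁻¹ * s * (h : G)) * (h : G)⁻¹ := by group
          _ = (h' : G) * ((h' : G)⁻¹ * s * (h' : G)) * (h : G)⁻¹ := by rw [e2]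
          _ = s * ((h' : G) * (h : G)⁻¹) := by group
      have hdH : d ∈ H := by rw [hd]; exact H.mul_mem h'.2 (H.inv_mem h.2)
      obtain ⟨hdi, hd0⟩ := (hH d).mp hdH
      have hd1 : d • o1 = o1 := by
        by_contra hne
        apply hs_ne
        apply par s hss o1 (d • o1) (Ne.symm hne) hs1
        rw [← mul_smul, ← hds, mul_smul, hs1]
      have hd1' : d = 1 := h3s d oi o0 o1 hi0 hi1 h01 hdi hd0 hd1
      apply Subtype.ext
      rw [hd] at hd1'
      exact (mul_inv_eq_one.mp hd1').symm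
    have hθsurj : Function.Surjective θ := Finite.surjective_of_injective hθinj
    intro h hhi hh0
    obtain ⟨x, hx⟩ := hθsurj ⟨h, (hH h).mpr ⟨hhi, hh0⟩⟩
    have hx' : h = (x : G)⁻¹ * (s * (x : G) * s⁻¹) := by
      rw [← hθ, hx]
    rw [hx', hsinv]
    apply eq_inv_of_mul_eq_one_right
    calc (x : G)⁻¹ * (s * (x : G) * s) * (s * ((x : G)⁻¹ * (s * (x : G) * s)) * s)
        = (x : G)⁻¹ * s * (x : G) * (s * s) * (x : G)⁻¹ * s * (x : G) * (s * s) := by group
      _ = (x : G)⁻¹ * s * (x : G) * 1 * (x : G)⁻¹ * s * (x : G) * 1 := by rw [hss]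
      _ = (x : G)⁻¹ * (s * s) * (x : G) := by group
      _ = 1 := by rw [hss]; group
  have hHcomm : ∀ h h' : G, h • oi = oi → h • o0 = o0 → h' • oi = oi → h' • o0 = o0 →
      h * h' = h' * h := by
    intro h h' h1 h2 h1' h2'
    have e1 := hHinv h h1 h2
    have e2 := hHinv h' h1' h2'
    have e3 := hHinv (h * h') (by rw [mul_smul, h1', h1]) (by rw [mul_smul, h2', h2])
    have e4 : h⁻¹ * h'⁻¹ = h'⁻¹ * h⁻¹ := by
      calc h⁻¹ * h'⁻¹ = (s * h * s⁻¹) * (s * h' * s⁻¹) := by rw [e1, e2]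
        _ = s * (h * h') * s⁻¹ := by group
        _ = (h * h')⁻¹ := e3
        _ = h'⁻¹ * h⁻¹ := mul_inv_rev h h'
    calc h * h' = (h'⁻¹ * h⁻¹)⁻¹ := by group
      _ = (h⁻¹ * h'⁻¹)⁻¹ := by rw [e4]
      _ = h' * h := by group
  -- the vector space
  letI cg : CommGroup K := { (inferInstance : Group K) with
    mul_comm := fun x y => Subtype.ext (hcomm x.1 x.2 y.1 y.2) }
  have hext : ∀ v w : Additive K,
      ((Additive.toMul v : K) : G) = ((Additive.toMul w : K) : G) → v = w :=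
    fun v w h => Additive.toMul.injective (Subtype.ext h)
  obtain ⟨f₀, hf₀⟩ : ∃ f₀ : MulAction.stabilizer G oi → AddMonoid.End (Additive K),
      ∀ (g : MulAction.stabilizer G oi) (v : Additive K),
      ((Additive.toMul (f₀ g v) : K) : G) = (g : G) * ((Additive.toMul v : K) : G) * (g : G)⁻¹ := by
    refine ⟨fun g => AddMonoidHom.mk' (fun v => Additive.ofMul
        (⟨(g : G) * ((Additive.toMul v : K) : G) * (g : G)⁻¹,
          hK4 g g.2 _ (Additive.toMul v : K).2⟩ : K)) ?_, fun g v => rfl⟩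
    intro a b
    apply hext
    show (g : G) * (((Additive.toMul a : K) : G) * ((Additive.toMul b : K) : G)) * (g : G)⁻¹ =
      ((g : G) * ((Additive.toMul a : K) : G) * (g : G)⁻¹) *
        ((g : G) * ((Additive.toMul b : K) : G) * (g : G)⁻¹)
    group
  obtain ⟨f, hf⟩ : ∃ f : MulAction.stabilizer G oi →* AddMonoid.End (Additive K),
      ∀ (g : MulAction.stabilizer G oi) (v : Additive K),
      ((Additive.toMul (f g v) : K) : G) = (g : G) * ((Additive.toMul v : K) : G) * (g : G)⁻¹ := by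
    refine ⟨MonoidHom.mk ⟨f₀, ?_⟩ ?_, fun g v => hf₀ g v⟩
    · refine DFunLike.ext _ _ (fun v => hext _ _ ?_)
      rw [hf₀]
      show (1 : G) * ((Additive.toMul v : K) : G) * (1 : G)⁻¹ = ((Additive.toMul v : K) : G)
      group
    · intro g h
      refine DFunLike.ext _ _ (fun v => hext _ _ ?_)
      show ((Additive.toMul (f₀ (g * h) v) : K) : G) =
        ((Additive.toMul (f₀ g (f₀ h v)) : K) : G)
      rw [hf₀, hf₀, hf₀]
      show ((g : G) * (h : G)) * ((Additive.toMul v : K) : G) * ((g : G) * (h : G))⁻¹ = _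
      group
  have hne0 : ∀ v : Additive K, v ≠ 0 → ((Additive.toMul v : K) : G) ≠ 1 :=
    fun v hv h => hv (hext v 0 h)
  have hfapply : ∀ (k : MulAction.stabilizer G oi) (v w : Additive K),
      ((k : G) * ((Additive.toMul v : K) : G) * (k : G)⁻¹) • o0 =
        ((Additive.toMul w : K) : G) • o0 → f k v = w := by
    intro k v w h
    apply hext
    rw [hf]
    exact reg2 _ (hK4 k k.2 _ (Additive.toMul v : K).2) _ (Additive.toMul w : K).2 h
  obtain ⟨S, hS⟩ : ∃ S : Set (AddMonoid.End (Additive K)),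
      ∀ e, e ∈ S ↔ ∃ γ : MulAction.stabilizer G oi, (γ : G) • o0 = o0 ∧ e = f γ :=
    ⟨{e | ∃ γ : MulAction.stabilizer G oi, (γ : G) • o0 = o0 ∧ e = f γ}, fun e => Iff.rfl⟩
  have hScomm : ∀ x ∈ S, ∀ y ∈ S, x * y = y * x := by
    intro x hx y hy
    obtain ⟨γ, hγ, rfl⟩ := (hS x).mp hx
    obtain ⟨γ', hγ', rfl⟩ := (hS y).mp hy
    rw [← map_mul, ← map_mul]
    congr 1
    exact Subtype.ext (hHcomm γ.1 γ'.1 γ.2 hγ γ'.2 hγ')
  have hSt : ∀ v w : Additive K, v ≠ 0 → w ≠ 0 → ∃ e ∈ S, e v = w := by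
    intro v w hv hw
    have hv0 : ((Additive.toMul v : K) : G) • o0 ≠ o0 :=
      fun h => hne0 v hv (reg _ (Additive.toMul v : K).2 h)
    have hvi : ((Additive.toMul v : K) : G) • o0 ≠ oi := hKi _ (Additive.toMul v : K).2
    have hw0 : ((Additive.toMul w : K) : G) • o0 ≠ o0 :=
      fun h => hne0 w hw (reg _ (Additive.toMul w : K).2 h)
    have hwi : ((Additive.toMul w : K) : G) • o0 ≠ oi := hKi _ (Additive.toMul w : K).2
    obtain ⟨h, hhi, hh0, hhv⟩ := h3t oi o0 (((Additive.toMul v : K) : G) • o0) oi o0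
      (((Additive.toMul w : K) : G) • o0) hi0 (Ne.symm hvi) (Ne.symm hv0) hi0 (Ne.symm hwi)
      (Ne.symm hw0)
    refine ⟨f ⟨h, hhi⟩, (hS _).mpr ⟨⟨h, hhi⟩, hh0, rfl⟩, ?_⟩
    apply hfapply
    show (h * ((Additive.toMul v : K) : G) * h⁻¹) • o0 = _
    rw [mul_smul, mul_smul, inv_smul_eq_iff.mpr hh0.symm, hhv]
  obtain ⟨u₁, hu₁K, hu₁⟩ := hK3 o1 (Ne.symm hi1)
  obtain ⟨v₀, hv₀def⟩ : ∃ v₀ : Additive K, v₀ = Additive.ofMul (⟨u₁, hu₁K⟩ : K) := ⟨_, rfl⟩
  have hv₀u : ((Additive.toMul v₀ : K) : G) = u₁ := by rw [hv₀def]; rfl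
  have hv₀ : v₀ ≠ 0 := by
    intro h
    have h' : ((Additive.toMul v₀ : K) : G) = 1 := by rw [h]; rfl
    rw [hv₀u] at h'
    rw [h', one_smul] at hu₁
    exact h01 hu₁
  have hfinK : Finite (Additive K) := inferInstanceAs (Finite K)
  obtain ⟨hF, hevinj, hevsurj, hnz⟩ := closure_field_data S hScomm hSt v₀ hv₀
  have hfinEnd : Finite (AddMonoid.End (Additive K)) :=
    Finite.of_injective (fun e : AddMonoid.End (Additive K) => (e : Additive K → Additive K))
      DFunLike.coe_injective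
  have hfinE : Finite (Subring.closure S) := inferInstance
  letI fieldE : Field (Subring.closure S) := hF.toField
  -- the parametrisation of `K`
  obtain ⟨κ, hκ⟩ : ∃ κ : Subring.closure S → G,
      ∀ e, κ e = ((Additive.toMul (e.1 v₀) : K) : G) := ⟨_, fun e => rfl⟩
  have hκK : ∀ e, κ e ∈ K := fun e => by rw [hκ]; exact (Additive.toMul (e.1 v₀) : K).2
  have hκadd : ∀ e e' : Subring.closure S, κ (e + e') = κ e * κ e' := by
    intro e e'
    rw [hκ, hκ, hκ]
    rfl
  have hκ0 : κ 0 = 1 := by rw [hκ]; rfl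
  have hκ1 : κ 1 = u₁ := by rw [hκ]; exact hv₀u
  have hκinj : ∀ e e', κ e = κ e' → e = e' := by
    intro e e' h
    rw [hκ, hκ] at h
    exact hevinj e e' (hext _ _ h)
  have hκsurj : ∀ k ∈ K, ∃ e, κ e = k := by
    intro k hk
    obtain ⟨e, he⟩ := hevsurj (Additive.ofMul (⟨k, hk⟩ : K))
    refine ⟨e, ?_⟩
    rw [hκ, he]
    rfl
  have hmemE : ∀ γ : MulAction.stabilizer G oi, (γ : G) • o0 = o0 → f γ ∈ Subring.closure S :=
    fun γ hγ => Subring.subset_closure ((hS _).mpr ⟨γ, hγ, rfl⟩)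
  have hκconj : ∀ (γ : MulAction.stabilizer G oi) (hγ : (γ : G) • o0 = o0)
      (e : Subring.closure S), κ (⟨f γ, hmemE γ hγ⟩ * e) = (γ : G) * κ e * (γ : G)⁻¹ := by
    intro γ hγ e
    rw [hκ, hκ]
    exact hf γ (e.1 v₀)
  have h2E : (2 : Subring.closure S) = 0 := by
    have h11 : (1 : Subring.closure S) + 1 = 0 := by
      apply Subtype.ext
      refine DFunLike.ext _ _ (fun v => ?_)
      show v + v = 0
      apply hext
      exact hsq _ (Additive.toMul v : K).2
    rw [← one_add_one_eq_two]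
    exact h11
  have hneg : ∀ a : Subring.closure S, -a = a := by
    intro a
    rw [neg_eq_iff_add_eq_zero, ← two_mul, h2E, zero_mul]
  obtain ⟨pt, hpti, hptc⟩ : ∃ pt : OnePoint (Subring.closure S) → Ω,
      pt OnePoint.infty = oi ∧ ∀ e : Subring.closure S, pt (e : OnePoint (Subring.closure S)) =
        κ e • o0 :=
    ⟨fun p => Option.elim p oi (fun e => κ e • o0), rfl, fun e => rfl⟩
  have hptinj : Function.Injective pt := by
    intro p q hpq
    induction p using OnePoint.rec with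
    | infty =>
      induction q using OnePoint.rec with
      | infty => rfl
      | coe e =>
        rw [hpti, hptc] at hpq
        exact absurd hpq.symm (hKi _ (hκK e))
    | coe e =>
      induction q using OnePoint.rec with
      | infty =>
        rw [hpti, hptc] at hpq
        exact absurd hpq (hKi _ (hκK e))
      | coe e' =>
        rw [hptc, hptc] at hpq
        rw [hκinj e e' (reg2 _ (hκK e) _ (hκK e') hpq)]
  have hptsurj : Function.Surjective pt := by
    intro x
    by_cases hx : x = oi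
    · exact ⟨OnePoint.infty, by rw [hpti, hx]⟩
    · obtain ⟨k, hk, hkx⟩ := hK3 x hx
      obtain ⟨e, he⟩ := hκsurj k hk
      exact ⟨(e : OnePoint (Subring.closure S)), by rw [hptc, he, hkx]⟩
  refine ⟨Subring.closure S, fieldE, hfinE, pt, h2E, ⟨hptinj, hptsurj⟩, hpti, ?_, ?_, ?_, ?_⟩
  · rw [hptc, hκ0, one_smul]
  · rw [hptc, hκ1, hu₁]
  · intro x
    refine ⟨κ x, ?_⟩
    intro p
    induction p using OnePoint.rec with
    | infty =>
      rw [slPerm_uMat_infty, hpti]
      exact hK1 _ (hκK x)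
    | coe z =>
      rw [slPerm_uMat_coe, hptc, hptc, add_comm, hκadd, mul_smul]
  · refine ⟨s, ?_⟩
    intro p
    induction p using OnePoint.rec with
    | infty =>
      rw [slPerm_wMat_infty, hpti, hptc, hκ0, one_smul]
      exact hsi
    | coe z =>
      by_cases hz : z = 0
      · rw [hz, slPerm_wMat_zero, hpti, hptc, hκ0, one_smul]
        exact hs0
      · rw [slPerm_wMat_coe z hz]
        obtain ⟨γ, hγ0, hzγ⟩ := (hS _).mp (hnz z hz)
        have hγ0' : ((γ⁻¹ : MulAction.stabilizer G oi) : G) • o0 = o0 := by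
          show (γ : G)⁻¹ • o0 = o0
          rw [inv_smul_eq_iff, hγ0]
        have hz' : z = ⟨f γ, hmemE γ hγ0⟩ := Subtype.ext hzγ
        have hinv : -z⁻¹ = (⟨f γ⁻¹, hmemE γ⁻¹ hγ0'⟩ : Subring.closure S) := by
          rw [hneg]
          apply inv_eq_of_mul_eq_one_right
          apply Subtype.ext
          show z.1 * f γ⁻¹ = 1
          rw [hzγ, ← map_mul, mul_inv_cancel, map_one]
        rw [hinv, hptc, hptc]
        have e1 : κ z = (γ : G) * u₁ * (γ : G)⁻¹ := by
          have h := hκconj γ hγ0 1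
          rw [mul_one, hκ1] at h
          rw [hz']
          exact h
        have e2 : κ ⟨f γ⁻¹, hmemE γ⁻¹ hγ0'⟩ = (γ : G)⁻¹ * u₁ * (γ : G) := by
          have h := hκconj γ⁻¹ hγ0' 1
          rw [mul_one, hκ1] at h
          rw [h]
          show (γ : G)⁻¹ * u₁ * ((γ : G)⁻¹)⁻¹ = _
          rw [inv_inv]
        have hsγ : s * (γ : G) = (γ : G)⁻¹ * s := by
          have h := hHinv (γ : G) γ.2 hγ0
          calc s * (γ : G) = (s * (γ : G) * s⁻¹) * s := by group
            _ = (γ : G)⁻¹ * s := by rw [h]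
        rw [e1, e2, mul_smul, mul_smul, mul_smul, mul_smul, hγ0, inv_smul_eq_iff.mpr hγ0.symm,
          hu₁, ← mul_smul, hsγ, mul_smul, hs1]

/-- A sharply triply transitive group of odd degree is `SL₂` of a finite field of
characteristic `2`, acting on `|E| + 1` points. -/
theorem sharp3_sl2 {G : Type u} {Ω : Type*} [Group G] [Finite G] [MulAction G Ω] [Finite Ω]
    (hodd : Odd (Nat.card Ω)) (oi o0 o1 : Ω) (hi0 : oi ≠ o0) (hi1 : oi ≠ o1) (h01 : o0 ≠ o1)
    (h3t : ∀ a b c a' b' c' : Ω, a ≠ b → a ≠ c → b ≠ c → a' ≠ b' → a' ≠ c' → b' ≠ c' →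
      ∃ g : G, g • a = a' ∧ g • b = b' ∧ g • c = c')
    (h3s : ∀ (g : G) (a b c : Ω), a ≠ b → a ≠ c → b ≠ c → g • a = a → g • b = b → g • c = c →
      g = 1) :
    ∃ (E : Type u) (_ : Field E) (_ : Finite E), (2 : E) = 0 ∧
      Nat.card Ω = Nat.card E + 1 ∧
      Nonempty (G ≃* Matrix.SpecialLinearGroup (Fin 2) E) := by
  obtain ⟨E, hfE, hfinE, pt, h2, hbij, hpi, hp0, hp1, hU, hW⟩ :=
    sharp3_data hodd oi o0 o1 hi0 hi1 h01 h3t h3s
  refine ⟨E, hfE, hfinE, h2, ?_, ?_⟩
  · rw [← Nat.card_eq_of_bijective pt hbij]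
    show Nat.card (Option E) = _
    exact Finite.card_option
  · apply sl2_equiv_of_action E h2 pt hbij ?_ hU hW
    intro g h1 h2' h3
    rw [hpi] at h1
    rw [hp0] at h2'
    rw [hp1] at h3
    exact h3s g oi o0 o1 hi0 hi1 h01 h1 h2' h3

end Cfsg.Agent.Helper18
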