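import Mathlib
import Cfsg.Agent.Helper18.Sharp3

set_option autoImplicit false

/-!
# Sharply triply transitive permutation groups of odd degree (helper18)

The permutation-group form of `sharp3_sl2`, with the field replaced by a Galois field in
the lowest universe.
-/

namespace Cfsg.Agent.Helper18

universe u

/-- An embedding of `Fin 3` with prescribed distinct values. -/
theorem exists_emb3 {α : Type*} (a b c : α) (hab : a ≠ b) (hac : a ≠ c) (hbc : b ≠ c) :
    ∃ x : Fin 3 ↪ α, x 0 = a ∧ x 1 = b ∧ x 2 = c := by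
  refine ⟨⟨![a, b, c], ?_⟩, rfl, rfl, rfl⟩
  intro i j h
  match i, j, h with
  | 0, 0, _ => rfl
  | 0, 1, h => exact absurd h hab
  | 0, 2, h => exact absurd h hac
  | 1, 0, h => exact absurd h.symm hab
  | 1, 1, _ => rfl
  | 1, 2, h => exact absurd h hbc
  | 2, 0, h => exact absurd h.symm hac
  | 2, 1, h => exact absurd h.symm hbc
  | 2, 2, _ => rfl

/-- A ring isomorphism induces an isomorphism of special linear groups. -/
theorem sl2_congr {E F : Type*} [Field E] [Field F] (ψ : E ≃+* F) :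
    Nonempty (Matrix.SpecialLinearGroup (Fin 2) E ≃* Matrix.SpecialLinearGroup (Fin 2) F) := by
  refine ⟨MonoidHom.toMulEquiv (Matrix.SpecialLinearGroup.map ψ.toRingHom)
    (Matrix.SpecialLinearGroup.map ψ.symm.toRingHom) ?_ ?_⟩
  · ext A i j
    simp
  · ext A i j
    simp

theorem sharp3_perm {α : Type u} [Fintype α] (hm : 3 ≤ Fintype.card α)
    (hodd : Odd (Fintype.card α)) (G : Subgroup (Equiv.Perm α))
    (h3 : MulAction.IsMultiplyPretransitive G α 3)
    (hsharp : ∀ g : G, ∀ a b c : α, a ≠ b → a ≠ c → b ≠ c → g • a = a → g • b = b →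
      g • c = c → g = 1) :
    ∃ a : ℕ, 1 ≤ a ∧ Fintype.card α = 2 ^ a + 1 ∧ ∃ (F : Type) (_ : Field F) (_ : Fintype F),
      Fintype.card F = 2 ^ a ∧ (2 : F) = 0 ∧
      Nonempty (G ≃* Matrix.SpecialLinearGroup (Fin 2) F) := by
  classical
  obtain ⟨oi, o0, o1, hi0, hi1, h01⟩ := Fintype.two_lt_card_iff.mp hm
  rw [MulAction.isMultiplyPretransitive_iff] at h3
  have h3t : ∀ a b c a' b' c' : α, a ≠ b → a ≠ c → b ≠ c → a' ≠ b' → a' ≠ c' → b' ≠ c' →
      ∃ g : G, g • a = a' ∧ g • b = b' ∧ g • c = c' := by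
    intro a b c a' b' c' hab hac hbc hab' hac' hbc'
    obtain ⟨x, hx0, hx1, hx2⟩ := exists_emb3 a b c hab hac hbc
    obtain ⟨y, hy0, hy1, hy2⟩ := exists_emb3 a' b' c' hab' hac' hbc'
    obtain ⟨g, hg⟩ := h3 x y
    refine ⟨g, ?_, ?_, ?_⟩
    · rw [← hx0, ← hy0, ← hg]; rfl
    · rw [← hx1, ← hy1, ← hg]; rfl
    · rw [← hx2, ← hy2, ← hg]; rfl
  have hodd' : Odd (Nat.card α) := by rw [Nat.card_eq_fintype_card]; exact hodd
  obtain ⟨E, hfE, hfinE, h2, hcard, ⟨iso⟩⟩ :=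
    sharp3_sl2 (G := G) (Ω := α) hodd' oi o0 o1 hi0 hi1 h01 h3t hsharp
  letI : Fintype E := Fintype.ofFinite E
  haveI : CharP E 2 := CharTwo.of_one_ne_zero_of_two_eq_zero one_ne_zero h2
  obtain ⟨n, -, hn⟩ := FiniteField.card E 2
  haveI : Fact (Nat.Prime 2) := ⟨Nat.prime_two⟩
  have hn0 : (n : ℕ) ≠ 0 := n.pos.ne'
  letI : Fintype (GaloisField 2 (n : ℕ)) := Fintype.ofFinite _
  have hcF : Fintype.card (GaloisField 2 (n : ℕ)) = 2 ^ (n : ℕ) := by
    rw [← Nat.card_eq_fintype_card]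
    exact GaloisField.card 2 n hn0
  obtain ⟨ψ⟩ : Nonempty (E ≃+* GaloisField 2 (n : ℕ)) :=
    ⟨FiniteField.ringEquivOfCardEq (hn.trans hcF.symm)⟩
  obtain ⟨iso2⟩ := sl2_congr ψ
  refine ⟨n, n.pos, ?_, GaloisField 2 (n : ℕ), inferInstance, inferInstance, hcF, ?_,
    ⟨iso.trans iso2⟩⟩
  · rw [← Nat.card_eq_fintype_card, hcard, Nat.card_eq_fintype_card, hn]
  · have h := map_ofNat ψ 2
    rw [← h, h2, map_zero]

end Cfsg.Agent.Helper18
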