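import Mathlib
import Cfsg.Agent.Helper18.Sharp3Perm

set_option autoImplicit false

/-!
# Replacing a finite field of characteristic two by a Galois field (helper18)
-/

namespace Cfsg.Agent.Helper18

/-- `SL₂` of a finite field of characteristic `2` is `SL₂` of a field in the lowest universe
of the same cardinality. -/
theorem sl2_type0 {E : Type*} [Field E] [Finite E] (h2 : (2 : E) = 0) :
    ∃ (F : Type) (_ : Field F) (_ : Fintype F), Fintype.card F = Nat.card E ∧ (2 : F) = 0 ∧
      Nonempty (Matrix.SpecialLinearGroup (Fin 2) E ≃* Matrix.SpecialLinearGroup (Fin 2) F) := by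
  classical
  letI : Fintype E := Fintype.ofFinite E
  haveI : CharP E 2 := CharTwo.of_one_ne_zero_of_two_eq_zero one_ne_zero h2
  obtain ⟨n, -, hn⟩ := FiniteField.card E 2
  haveI : Fact (Nat.Prime 2) := ⟨Nat.prime_two⟩
  have hn0 : (n : ℕ) ≠ 0 := n.pos.ne'
  letI : Fintype (GaloisField 2 (n : ℕ)) := Fintype.ofFinite _
  have hcF : Fintype.card (GaloisField 2 (n : ℕ)) = 2 ^ (n : ℕ) := by
    rw [← Nat.card_eq_fintype_card]
    exact GaloisField.card 2 n hn0
  obtain ⟨ψ⟩ : Nonempty (E ≃+* GaloisField 2 (n : ℕ)) :=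
    ⟨FiniteField.ringEquivOfCardEq (hn.trans hcF.symm)⟩
  refine ⟨GaloisField 2 (n : ℕ), inferInstance, inferInstance, ?_, ?_, sl2_congr ψ⟩
  · rw [hcF, Nat.card_eq_fintype_card, hn]
  · have h := map_ofNat ψ 2
    rw [← h, h2, map_zero]

/-- In characteristic `2`, `SL₂(F)` is isomorphic to `PSL₂(F)`. -/
theorem sl2_equiv_psl2 {F : Type*} [Field F] (h2 : (2 : F) = 0) :
    Nonempty (Matrix.SpecialLinearGroup (Fin 2) F ≃*
      Matrix.ProjectiveSpecialLinearGroup (Fin 2) F) := by
  have hcenter : Subgroup.center (Matrix.SpecialLinearGroup (Fin 2) F) = ⊥ := by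
    rw [eq_bot_iff]
    intro A hA
    rw [Matrix.SpecialLinearGroup.mem_center_iff] at hA
    obtain ⟨r, hr, hrA⟩ := hA
    rw [Subgroup.mem_bot]
    rw [Fintype.card_fin] at hr
    have hr2 : (r - 1) ^ 2 = 0 := by linear_combination hr + (1 - r) * h2
    have hr1 : r = 1 := by
      have := (pow_eq_zero_iff (by norm_num)).mp hr2
      linear_combination this
    apply Subtype.ext
    rw [← hrA, hr1]
    simp
  have hqinj : Function.Injective
      (QuotientGroup.mk' (Subgroup.center (Matrix.SpecialLinearGroup (Fin 2) F))) := by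
    rw [← MonoidHom.ker_eq_bot_iff, QuotientGroup.ker_mk', hcenter]
  exact ⟨MulEquiv.ofBijective (QuotientGroup.mk' (Subgroup.center
    (Matrix.SpecialLinearGroup (Fin 2) F))) ⟨hqinj, QuotientGroup.mk'_surjective _⟩⟩

end Cfsg.Agent.Helper18
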