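import Mathlib

set_option autoImplicit false

namespace Cfsg.Agent.Helper18

section ThompsonTr

/-- the sign character of a subgroup of index two -/
theorem exists_signHom {R : Type*} [Group R] (M : Subgroup R) (hM : M.index = 2) :
    ∃ ϕ : R →* ℤˣ, ∀ r, (r ∈ M → ϕ r = 1) ∧ (r ∉ M → ϕ r = -1) := by
  classical
  refine ⟨{ toFun := fun r => if r ∈ M then 1 else -1, map_one' := ?_, map_mul' := ?_ }, ?_⟩
  · simp [M.one_mem]
  · intro a b
    have h := Subgroup.mul_mem_iff_of_index_two hM (a := a) (b := b)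
    by_cases ha : a ∈ M <;> by_cases hb : b ∈ M <;> simp [ha, hb, h]
  · intro r
    constructor
    · intro h
      show (if r ∈ M then (1 : ℤˣ) else -1) = 1
      rw [if_pos h]
    · intro h
      show (if r ∈ M then (1 : ℤˣ) else -1) = -1
      rw [if_neg h]

variable {L : Type*} [Group L] [Finite L]

/-- in a non-abelian simple group every transfer into `ℤˣ` is trivial -/
theorem transfer_eq_one_of_simple [IsSimpleGroup L] (hL : ¬ IsMulCommutative L) (H : Subgroup L)
    (ϕ : H →* ℤˣ) (g : L) : MonoidHom.transfer ϕ g = 1 := by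
  have hn : (MonoidHom.transfer ϕ).ker.Normal := MonoidHom.normal_ker _
  rcases hn.eq_bot_or_eq_top with h | h
  · exfalso
    apply hL
    have hinj : Function.Injective (MonoidHom.transfer ϕ) := (MonoidHom.ker_eq_bot_iff _).mp h
    exact ⟨⟨fun a b => hinj (by rw [map_mul, map_mul, mul_comm])⟩⟩
  · have : g ∈ (MonoidHom.transfer ϕ).ker := by rw [h]; trivial
    exact this

/-- transfer of an element of order four whose square is an isolated involution with
centralizer `R` -/
theorem transfer_isolated (R : Subgroup L) (z : L)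
    (hcz : ∀ x : L, x * z = z * x → x ∈ R)
    (hiso : ∀ g : L, g⁻¹ * z * g ∈ R → g⁻¹ * z * g = z)
    (u : L) (huR : u ∈ R) (hu2 : u * u = z) (hz2 : z * z = 1) (ϕ : R →* ℤˣ) :
    MonoidHom.transfer ϕ u = ϕ ⟨u, huR⟩ := by
  classical
  have : Fintype (Quotient (MulAction.orbitRel (Subgroup.zpowers u) (L ⧸ R))) :=
    Fintype.ofFinite _
  rw [MonoidHom.transfer_eq_prod_quotient_orbitRel_zpowers_quot]
  have hu4 : u ^ 4 = 1 := by
    have : u ^ 4 = (u * u) * (u * u) := by
      rw [show (4 : ℕ) = 2 + 2 from rfl, pow_add, pow_two]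
    rw [this, hu2, hz2]
  have hkR : ∀ k : L, k⁻¹ * z * k ∈ R → k ∈ R := by
    intro k hk
    have h1 := hiso k hk
    apply hcz
    have : z * k = k * z := by
      calc z * k = k * (k⁻¹ * z * k) := by group
        _ = k * z := by rw [h1]
    exact this.symm
  have key : ∀ c : L ⧸ R, c.out ∉ R → Function.minimalPeriod (u • ·) c = 4 := by
    intro c hc
    have hmem := QuotientGroup.out_conj_pow_minimalPeriod_mem R u c
    have hdvd : Function.minimalPeriod (u • ·) c ∣ 4 := by
      apply Function.IsPeriodicPt.minimalPeriod_dvd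
      show (u • ·)^[4] c = c
      rw [smul_iterate, hu4]
      exact one_smul _ _
    have hle := Nat.le_of_dvd (by norm_num) hdvd
    obtain ⟨m, hm⟩ : ∃ m, m = Function.minimalPeriod (u • ·) c := ⟨_, rfl⟩
    rw [← hm] at hmem hdvd hle ⊢
    interval_cases m
    · exact absurd hdvd (by norm_num)
    · exfalso
      rw [pow_one] at hmem
      apply hc
      apply hkR
      have : c.out⁻¹ * z * c.out = (c.out⁻¹ * u * c.out) * (c.out⁻¹ * u * c.out) := by
        rw [← hu2]; group
      rw [this]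
      exact R.mul_mem hmem hmem
    · exfalso
      apply hc
      apply hkR
      have : u ^ 2 = z := by rw [pow_two, hu2]
      rw [this] at hmem
      exact hmem
    · exact absurd hdvd (by norm_num)
    · rfl
  obtain ⟨q₀, hq₀⟩ : ∃ q₀ : Quotient (MulAction.orbitRel (Subgroup.zpowers u) (L ⧸ R)),
      q₀ = Quotient.mk _ ((1 : L) : L ⧸ R) := ⟨_, rfl⟩
  have hout : ∀ q : Quotient (MulAction.orbitRel (Subgroup.zpowers u) (L ⧸ R)),
      q.out.out ∈ R → q = q₀ := by
    intro q hq
    have h1 : q.out = ((1 : L) : L ⧸ R) := by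
      have h2 : ((q.out.out : L) : L ⧸ R) = ((1 : L) : L ⧸ R) := by
        rw [QuotientGroup.eq]
        simpa using hq
      exact (QuotientGroup.out_eq' q.out).symm.trans h2
    calc q = Quotient.mk _ q.out := (Quotient.out_eq q).symm
      _ = q₀ := by rw [h1, hq₀]
  have h0 : q₀.out = ((1 : L) : L ⧸ R) := by
    have h1 : q₀.out ∈ MulAction.orbit (Subgroup.zpowers u) ((1 : L) : L ⧸ R) := by
      rw [← MulAction.orbitRel_apply]
      apply Quotient.exact
      rw [Quotient.out_eq, hq₀]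
    obtain ⟨⟨w, hw⟩, hw2⟩ := h1
    have hwR : w ∈ R := by
      obtain ⟨n, hn⟩ := hw
      have hn' : u ^ n = w := hn
      rw [← hn']
      exact R.zpow_mem huR n
    rw [← hw2]
    show ((w * 1 : L) : L ⧸ R) = _
    rw [QuotientGroup.eq]
    simpa using hwR
  rw [Fintype.prod_eq_single q₀]
  · have hk0 : q₀.out.out ∈ R := by
      have h1 : ((q₀.out.out : L) : L ⧸ R) = ((1 : L) : L ⧸ R) :=
        (QuotientGroup.out_eq' q₀.out).trans h0
      rw [QuotientGroup.eq] at h1
      simpa using h1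
    have hm : Function.minimalPeriod (u • ·) q₀.out = 1 := by
      rw [Function.minimalPeriod_eq_one_iff_isFixedPt, h0]
      show ((u * 1 : L) : L ⧸ R) = _
      rw [QuotientGroup.eq]
      simpa using huR
    have h2 : (⟨q₀.out.out⁻¹ * u ^ Function.minimalPeriod (u • ·) q₀.out * q₀.out.out,
        QuotientGroup.out_conj_pow_minimalPeriod_mem R u q₀.out⟩ : R)
        = (⟨q₀.out.out, hk0⟩ : R)⁻¹ * ⟨u, huR⟩ * ⟨q₀.out.out, hk0⟩ := by
      apply Subtype.ext
      show q₀.out.out⁻¹ * u ^ _ * q₀.out.out = q₀.out.out⁻¹ * u * q₀.out.out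
      rw [hm, pow_one]
    rw [h2, map_mul, map_mul, map_inv, mul_comm, ← mul_assoc, mul_inv_cancel, one_mul]
  · intro q hq
    have hk : q.out.out ∉ R := fun h => hq (hout q h)
    have hm := key q.out hk
    refine (congrArg ϕ (Subtype.ext ?_)).trans (map_one ϕ)
    show q.out.out⁻¹ * u ^ _ * q.out.out = 1
    rw [hm, hu4]
    group

/-- transfer of a central involution of a self-normalizing Sylow `2`-subgroup `R` -/
theorem transfer_central_invol (R : Subgroup L) (hR2 : IsPGroup 2 R)
    (hN : ∀ k : L, k ∈ Subgroup.normalizer (R : Set L) → k ∈ R)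
    (y : L) (hyR : y ∈ R) (hy2 : y * y = 1) (hyc : ∀ r ∈ R, r * y = y * r)
    (ϕ : R →* ℤˣ) (hϕ : ϕ ⟨y, hyR⟩ = -1) :
    MonoidHom.transfer ϕ y = -1 := by
  classical
  have : Fact (Nat.Prime 2) := ⟨Nat.prime_two⟩
  have : Fintype (Quotient (MulAction.orbitRel (Subgroup.zpowers y) (L ⧸ R))) :=
    Fintype.ofFinite _
  have : Fintype (L ⧸ R) := Fintype.ofFinite _
  obtain ⟨ψ, hψ⟩ : ∃ ψ : L → ℤˣ,
      ψ = fun k => if h : k⁻¹ * y * k ∈ R then ϕ ⟨k⁻¹ * y * k, h⟩ else 1 := ⟨_, rfl⟩
  have hψ1 : ∀ k (h : k⁻¹ * y * k ∈ R), ψ k = ϕ ⟨k⁻¹ * y * k, h⟩ := by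
    intro k h
    rw [hψ]
    simp only [dif_pos h]
  have hψ2 : ∀ k, k⁻¹ * y * k ∉ R → ψ k = 1 := by
    intro k h
    rw [hψ]
    simp only [dif_neg h]
  have hψr : ∀ k s, s ∈ R → ψ (k * s) = ψ k := by
    intro k s hs
    have e : (k * s)⁻¹ * y * (k * s) = s⁻¹ * (k⁻¹ * y * k) * s := by group
    by_cases h : k⁻¹ * y * k ∈ R
    · have h' : (k * s)⁻¹ * y * (k * s) ∈ R := by
        rw [e]; exact R.mul_mem (R.mul_mem (R.inv_mem hs) h) hs
      rw [hψ1 k h, hψ1 (k * s) h']
      have h3 : (⟨(k * s)⁻¹ * y * (k * s), h'⟩ : R)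
          = (⟨s, hs⟩ : R)⁻¹ * ⟨k⁻¹ * y * k, h⟩ * ⟨s, hs⟩ := Subtype.ext e
      rw [h3, map_mul, map_mul, map_inv, mul_comm, ← mul_assoc, mul_inv_cancel, one_mul]
    · have h' : (k * s)⁻¹ * y * (k * s) ∉ R := by
        intro h'
        apply h
        rw [e] at h'
        have h3 : k⁻¹ * y * k = s * (s⁻¹ * (k⁻¹ * y * k) * s) * s⁻¹ := by group
        rw [h3]
        exact R.mul_mem (R.mul_mem hs h') (R.inv_mem hs)
      rw [hψ2 k h, hψ2 (k * s) h']
  have hψl : ∀ k r, r ∈ R → ψ (r * k) = ψ k := by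
    intro k r hr
    have e : (r * k)⁻¹ * y * (r * k) = k⁻¹ * y * k := by
      have h1 : r⁻¹ * y * r = y := by
        rw [mul_assoc, ← hyc r hr]; group
      calc (r * k)⁻¹ * y * (r * k) = k⁻¹ * (r⁻¹ * y * r) * k := by group
        _ = k⁻¹ * y * k := by rw [h1]
    by_cases h : k⁻¹ * y * k ∈ R
    · have h' : (r * k)⁻¹ * y * (r * k) ∈ R := by rw [e]; exact h
      rw [hψ1 k h, hψ1 (r * k) h']
      exact congrArg ϕ (Subtype.ext e)
    · have h' : (r * k)⁻¹ * y * (r * k) ∉ R := by rw [e]; exact h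
      rw [hψ2 k h, hψ2 _ h']
  have hfix : ∀ k : L, y • ((k : L) : L ⧸ R) = ((k : L) : L ⧸ R) ↔ k⁻¹ * y * k ∈ R := by
    intro k
    show ((y * k : L) : L ⧸ R) = _ ↔ _
    rw [eq_comm, QuotientGroup.eq, mul_assoc]
  have hprod : MonoidHom.transfer ϕ y = ∏ c : L ⧸ R, ψ c.out := by
    rw [MonoidHom.transfer_eq_prod_quotient_orbitRel_zpowers_quot]
    apply Fintype.prod_of_injective
      (fun q : Quotient (MulAction.orbitRel (Subgroup.zpowers y) (L ⧸ R)) => q.out)
    · exact Quotient.out_injective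
    · intro c hc
      by_contra hne
      apply hc
      have hmem : c.out⁻¹ * y * c.out ∈ R := by
        by_contra h; exact hne (hψ2 _ h)
      have hfx : y • c = c := by
        have := (hfix c.out).mpr hmem
        rwa [QuotientGroup.out_eq'] at this
      refine ⟨Quotient.mk _ c, ?_⟩
      have h1 : (Quotient.mk (MulAction.orbitRel (Subgroup.zpowers y) (L ⧸ R)) c).out
          ∈ MulAction.orbit (Subgroup.zpowers y) c := by
        rw [← MulAction.orbitRel_apply]
        exact Quotient.exact (Quotient.out_eq _)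
      obtain ⟨⟨w, hw⟩, hw2⟩ := h1
      obtain ⟨n, hn⟩ := hw
      have hn' : y ^ n = w := hn
      show (Quotient.mk (MulAction.orbitRel (Subgroup.zpowers y) (L ⧸ R)) c).out = c
      rw [← hw2]
      show w • c = c
      rw [← hn']
      exact MulAction.mem_stabilizer_iff.mp
        ((MulAction.stabilizer L c).zpow_mem (MulAction.mem_stabilizer_iff.mpr hfx) n)
    · intro q
      have hmem := QuotientGroup.out_conj_pow_minimalPeriod_mem R y q.out
      have hdvd : Function.minimalPeriod (y • ·) q.out ∣ 2 := by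
        apply Function.IsPeriodicPt.minimalPeriod_dvd
        show (y • ·)^[2] q.out = q.out
        rw [smul_iterate, pow_two, hy2]
        exact one_smul _ _
      have hle := Nat.le_of_dvd (by norm_num) hdvd
      obtain ⟨m, hm⟩ : ∃ m, m = Function.minimalPeriod (y • ·) q.out := ⟨_, rfl⟩
      have hm12 : m = 1 ∨ m = 2 := by
        rw [← hm] at hdvd hle
        interval_cases m
        · exact absurd hdvd (by norm_num)
        · left; rfl
        · right; rfl
      rcases hm12 with h1 | h2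
      · have hmem' : q.out.out⁻¹ * y * q.out.out ∈ R := by
          have h3 := hmem
          rw [← hm, h1, pow_one] at h3
          exact h3
        show ϕ ⟨_, _⟩ = ψ q.out.out
        rw [hψ1 _ hmem']
        refine congrArg ϕ (Subtype.ext ?_)
        show q.out.out⁻¹ * y ^ _ * q.out.out = q.out.out⁻¹ * y * q.out.out
        rw [← hm, h1, pow_one]
      · have hnot : q.out.out⁻¹ * y * q.out.out ∉ R := by
          intro h
          have hfx := (hfix q.out.out).mpr h
          rw [QuotientGroup.out_eq'] at hfx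
          have h3 : Function.minimalPeriod (y • ·) q.out = 1 :=
            Function.minimalPeriod_eq_one_iff_isFixedPt.mpr hfx
          omega
        show ϕ ⟨_, _⟩ = ψ q.out.out
        rw [hψ2 _ hnot]
        refine (congrArg ϕ (Subtype.ext ?_)).trans (map_one ϕ)
        show q.out.out⁻¹ * y ^ _ * q.out.out = 1
        rw [← hm, h2, pow_two, hy2]
        group
  have hinv : ∀ (r : L), r ∈ R → ∀ c : L ⧸ R, ψ (r • c).out = ψ c.out := by
    intro r hr c
    obtain ⟨s, hs⟩ := QuotientGroup.mk_out_eq_mul R (r * c.out)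
    have h1 : r • c = ((r * c.out : L) : L ⧸ R) := by
      conv_lhs => rw [← QuotientGroup.out_eq' c]
      rfl
    rw [h1, hs, hψr _ _ s.2, hψl _ _ hr]
  let S : SubMulAction R (L ⧸ R) :=
    { carrier := {c | ψ c.out = -1}
      smul_mem' := fun r c hc => by
        show ψ ((r : L) • c).out = -1
        rw [hinv _ r.2]
        exact hc }
  have hcard := hR2.card_modEq_card_fixedPoints (↥S)
  have hfp : Nat.card (MulAction.fixedPoints R (↥S)) = 1 := by
    have h1 : ψ (((1 : L) : L ⧸ R)).out = -1 := by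
      obtain ⟨s, hs⟩ := QuotientGroup.mk_out_eq_mul R (1 : L)
      rw [hs, hψr _ _ s.2]
      have h1' : (1 : L)⁻¹ * y * 1 ∈ R := by simpa using hyR
      rw [hψ1 _ h1']
      have h3 : (⟨(1 : L)⁻¹ * y * 1, h1'⟩ : R) = ⟨y, hyR⟩ := Subtype.ext (by simp)
      rw [h3, hϕ]
    have key : ∀ (c : L ⧸ R) (hc : c ∈ S),
        (⟨c, hc⟩ : ↥S) ∈ MulAction.fixedPoints R ↥S → c = ((1 : L) : L ⧸ R) := by
      intro c hc hfixed
      have h2 : ((c.out : L) : L ⧸ R) ∈ MulAction.fixedPoints R (L ⧸ R) := by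
        rw [QuotientGroup.out_eq']
        intro r
        have h3 := hfixed r
        exact congrArg Subtype.val h3
      rw [Sylow.mem_fixedPoints_mul_left_cosets_iff_mem_normalizer] at h2
      have h3 := hN _ h2
      rw [← QuotientGroup.out_eq' c, QuotientGroup.eq]
      simpa using h3
    rw [Nat.card_eq_one_iff_unique]
    refine ⟨⟨?_⟩, ⟨⟨⟨((1 : L) : L ⧸ R), h1⟩, ?_⟩⟩⟩
    · rintro ⟨⟨a, ha⟩, ha'⟩ ⟨⟨b, hb⟩, hb'⟩
      have e1 := key a ha ha'
      have e2 := key b hb hb'
      exact Subtype.ext (Subtype.ext (e1.trans e2.symm))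
    · intro r
      apply Subtype.ext
      show ((r : L) * 1 : L) = ((1 : L) : L ⧸ R)
      rw [QuotientGroup.eq]
      simpa using r.2
  have hodd : Odd (Nat.card ↥S) := by
    rw [hfp] at hcard
    rw [Nat.odd_iff]
    exact hcard
  rw [hprod]
  have h1 : ∀ c : L ⧸ R, ψ c.out = if ψ c.out = -1 then -1 else 1 := by
    intro c
    rcases Int.units_eq_one_or (ψ c.out) with h | h
    · rw [h]; simp
    · rw [h]; simp
  rw [Finset.prod_congr rfl (fun c _ => h1 c), Finset.prod_ite, Finset.prod_const_one, mul_one,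
    Finset.prod_const]
  have hc : (Finset.univ.filter (fun c : L ⧸ R => ψ c.out = -1)).card = Nat.card ↥S := by
    rw [← Fintype.card_subtype, ← Nat.card_eq_fintype_card]
    rfl
  rw [hc]
  exact hodd.neg_one_pow

end ThompsonTr

end Cfsg.Agent.Helper18
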