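import Mathlib

set_option autoImplicit false

/-!
# Wagner's theorem (helper18)

A non-trivial normal subgroup of a triply transitive group of odd degree at least `5` is
triply transitive.
-/

namespace Cfsg.Agent.Helper18

/-- An involution of a set of odd size has a fixed point. -/
theorem invol_fixed_of_odd {G Ω : Type*} [Group G] [MulAction G Ω] [Finite Ω]
    (hodd : Odd (Nat.card Ω)) (g : G) (hg : g * g = 1) : ∃ c : Ω, g • c = c := by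
  classical
  letI : Fintype Ω := Fintype.ofFinite Ω
  by_contra hcon
  obtain ⟨F0, hF0⟩ : ∃ F0 : Function.End Ω, ∀ x, F0 x = g • x := ⟨fun x => g • x, fun x => rfl⟩
  have hset : Function.fixedPoints F0 = ∅ := by
    ext x
    simp only [Set.mem_empty_iff_false, iff_false]
    intro hx
    have hx2 : g • x = x := by rw [← hF0]; exact hx
    exact hcon ⟨x, hx2⟩
  have hp2 : Fact (Nat.Prime 2) := ⟨Nat.prime_two⟩
  have hf : F0 ^ 2 ^ 1 = 1 := by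
    rw [pow_one, pow_two]
    funext x
    show F0 (F0 x) = x
    rw [hF0, hF0, ← mul_smul, hg, one_smul]
  have h := Equiv.Perm.card_fixedPoints_modEq (f := F0) hf
  rw [← Nat.card_eq_fintype_card, ← Nat.card_eq_fintype_card] at h
  have h2 : Nat.card (Function.fixedPoints F0) = 0 := by
    rw [Nat.card_coe_set_eq, hset, Set.ncard_empty]
  rw [h2] at h
  obtain ⟨m, hm⟩ := hodd
  rw [hm] at h
  unfold Nat.ModEq at h
  omega

theorem wagner_core {G Ω : Type*} [Group G] [Finite G] [MulAction G Ω] [Finite Ω]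
    (hfaith : ∀ g : G, (∀ x : Ω, g • x = x) → g = 1)
    (hodd : Odd (Nat.card Ω)) (h5 : 5 ≤ Nat.card Ω)
    (h3t : ∀ a b c a' b' c' : Ω, a ≠ b → a ≠ c → b ≠ c → a' ≠ b' → a' ≠ c' → b' ≠ c' →
      ∃ g : G, g • a = a' ∧ g • b = b' ∧ g • c = c')
    (N : Subgroup G) (hNn : N.Normal) (hN : N ≠ ⊥) :
    ∀ a b c a' b' c' : Ω, a ≠ b → a ≠ c → b ≠ c → a' ≠ b' → a' ≠ c' → b' ≠ c' →
      ∃ g ∈ N, g • a = a' ∧ g • b = b' ∧ g • c = c' := by
  classical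
  letI : Fintype Ω := Fintype.ofFinite Ω
  have hcardΩ : 5 ≤ Fintype.card Ω := by rw [← Nat.card_eq_fintype_card]; exact h5
  have avoid : ∀ s : Finset Ω, s.card < 5 → ∃ x, x ∉ s := by
    intro s hs
    by_contra hcon
    have : s = Finset.univ := Finset.eq_univ_iff_forall.mpr (fun x => by
      by_contra hx
      exact hcon ⟨x, hx⟩)
    rw [this, Finset.card_univ] at hs
    omega
  have third : ∀ a b : Ω, ∃ c, c ≠ a ∧ c ≠ b := by
    intro a b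
    obtain ⟨c, hc⟩ := avoid {a, b} (lt_of_le_of_lt Finset.card_le_two (by norm_num))
    exact ⟨c, fun h => hc (by rw [h]; simp), fun h => hc (by rw [h]; simp)⟩
  have fourth : ∀ a b c : Ω, ∃ d, d ≠ a ∧ d ≠ b ∧ d ≠ c := by
    intro a b c
    obtain ⟨d, hd⟩ := avoid {a, b, c} (lt_of_le_of_lt Finset.card_le_three (by norm_num))
    exact ⟨d, fun h => hd (by rw [h]; simp), fun h => hd (by rw [h]; simp),
      fun h => hd (by rw [h]; simp)⟩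
  have h2t : ∀ a b a' b' : Ω, a ≠ b → a' ≠ b' → ∃ g : G, g • a = a' ∧ g • b = b' := by
    intro a b a' b' hab hab'
    obtain ⟨c, hca, hcb⟩ := third a b
    obtain ⟨c', hca', hcb'⟩ := third a' b'
    obtain ⟨g, h1, h2, -⟩ := h3t a b c a' b' c' hab (Ne.symm hca) (Ne.symm hcb) hab'
      (Ne.symm hca') (Ne.symm hcb')
    exact ⟨g, h1, h2⟩
  -- a point moved by `N`
  obtain ⟨ν₀, hν₀N, a₀, hν₀a⟩ : ∃ ν₀ ∈ N, ∃ a₀ : Ω, ν₀ • a₀ ≠ a₀ := by
    by_contra hcon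
    apply hN
    rw [eq_bot_iff]
    intro ν hν
    rw [Subgroup.mem_bot]
    apply hfaith
    intro x
    by_contra hx
    exact hcon ⟨ν, hν, x, hx⟩
  -- transitivity of `N`
  have hNt : ∀ c d : Ω, ∃ ν ∈ N, ν • c = d := by
    intro c d
    by_cases hcd : c = d
    · exact ⟨1, N.one_mem, by rw [one_smul, hcd]⟩
    · obtain ⟨g, h1, h2⟩ := h2t a₀ (ν₀ • a₀) c d (Ne.symm hν₀a) hcd
      refine ⟨g * ν₀ * g⁻¹, hNn.conj_mem ν₀ hν₀N g, ?_⟩
      rw [mul_smul, mul_smul, inv_smul_eq_iff.mpr h1.symm, h2]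
  -- a nonidentity element of `N` with a fixed point
  obtain ⟨ν₁, hν₁N, x₁, hν₁x, b₁, hν₁b⟩ : ∃ ν₁ ∈ N, ∃ x₁ : Ω, ν₁ • x₁ = x₁ ∧
      ∃ b₁ : Ω, ν₁ • b₁ ≠ b₁ := by
    by_contra hcon
    have hfree : ∀ ν ∈ N, ∀ x : Ω, ν • x = x → ν = 1 := by
      intro ν hν x hx
      apply hfaith
      intro y
      by_contra hy
      exact hcon ⟨ν, hν, x, hx, y, hy⟩
    have hinv : ν₀⁻¹ • a₀ ≠ a₀ := by
      intro h
      rw [inv_smul_eq_iff] at h
      exact hν₀a h.symm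
    have hne : ν₀⁻¹ • a₀ ≠ ν₀ • a₀ := by
      intro h
      have hsq : (ν₀ * ν₀) • a₀ = a₀ := by
        rw [mul_smul, ← h, smul_inv_smul]
      have h1 : ν₀ * ν₀ = 1 := hfree _ (N.mul_mem hν₀N hν₀N) a₀ hsq
      obtain ⟨c, hc⟩ := invol_fixed_of_odd hodd ν₀ h1
      have h2 : ν₀ = 1 := hfree ν₀ hν₀N c hc
      rw [h2, one_smul] at hν₀a
      exact hν₀a rfl
    obtain ⟨ε, hε1, hε2, hε3⟩ := fourth a₀ (ν₀ • a₀) (ν₀⁻¹ • a₀)
    obtain ⟨g, hg1, hg2, hg3⟩ := h3t a₀ (ν₀ • a₀) (ν₀⁻¹ • a₀) a₀ (ν₀ • a₀) ε (Ne.symm hν₀a)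
      (Ne.symm hinv) (Ne.symm hne) (Ne.symm hν₀a) (Ne.symm hε1) (Ne.symm hε2)
    have hν' : g * ν₀ * g⁻¹ = ν₀ := by
      have hmem : g * ν₀ * g⁻¹ ∈ N := hNn.conj_mem ν₀ hν₀N g
      have hfix : (ν₀⁻¹ * (g * ν₀ * g⁻¹)) • a₀ = a₀ := by
        rw [mul_smul, mul_smul, mul_smul, inv_smul_eq_iff.mpr hg1.symm, hg2, inv_smul_smul]
      have h1 := hfree _ (N.mul_mem (N.inv_mem hν₀N) hmem) a₀ hfix
      exact (inv_mul_eq_one.mp h1).symm
    have h4 : (g * ν₀ * g⁻¹)⁻¹ • a₀ = ε := by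
      have h5' : (g * ν₀ * g⁻¹)⁻¹ = g * ν₀⁻¹ * g⁻¹ := by group
      rw [h5', mul_smul, mul_smul, inv_smul_eq_iff.mpr hg1.symm, hg3]
    rw [hν'] at h4
    exact hε3 h4.symm
  have hb₁x : b₁ ≠ x₁ := by
    rintro rfl
    exact hν₁b hν₁x
  have hc₁x : ν₁ • b₁ ≠ x₁ := by
    intro h
    have h' : ν₁ • b₁ = ν₁ • x₁ := by rw [hν₁x]; exact h
    exact hb₁x (smul_left_cancel _ h')
  have hNx : ∀ x d e : Ω, d ≠ x → e ≠ x → ∃ ν ∈ N, ν • x = x ∧ ν • d = e := by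
    intro x d e hd he
    by_cases hde : d = e
    · exact ⟨1, N.one_mem, one_smul _ _, by rw [one_smul, hde]⟩
    · obtain ⟨g, h1, h2, h3⟩ := h3t x₁ b₁ (ν₁ • b₁) x d e (Ne.symm hb₁x) (Ne.symm hc₁x)
        (Ne.symm hν₁b) (Ne.symm hd) (Ne.symm he) hde
      refine ⟨g * ν₁ * g⁻¹, hNn.conj_mem ν₁ hν₁N g, ?_, ?_⟩
      · rw [mul_smul, mul_smul, inv_smul_eq_iff.mpr h1.symm, hν₁x, h1]
      · rw [mul_smul, mul_smul, inv_smul_eq_iff.mpr h2.symm, h3]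
  have hN2 : ∀ a b c d : Ω, a ≠ b → c ≠ d → ∃ ν ∈ N, ν • a = c ∧ ν • b = d := by
    intro a b c d hab hcd
    obtain ⟨ν, hν, hνa⟩ := hNt a c
    have hνb : ν • b ≠ c := by
      intro h
      rw [← hνa] at h
      exact hab (smul_left_cancel _ h).symm
    obtain ⟨μ, hμ, hμc, hμd⟩ := hNx c (ν • b) d hνb (Ne.symm hcd)
    exact ⟨μ * ν, N.mul_mem hμ hν, by rw [mul_smul, hνa, hμc], by rw [mul_smul, hμd]⟩
  -- two base points and their setwise stabilizer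
  obtain ⟨pa, pb, hpab⟩ : ∃ pa pb : Ω, pa ≠ pb := ⟨a₀, ν₀ • a₀, Ne.symm hν₀a⟩
  have hmulA : ∀ g h : G, ((g • pa = pa ∧ g • pb = pb) ∨ (g • pa = pb ∧ g • pb = pa)) →
      ((h • pa = pa ∧ h • pb = pb) ∨ (h • pa = pb ∧ h • pb = pa)) →
      (((g * h) • pa = pa ∧ (g * h) • pb = pb) ∨ ((g * h) • pa = pb ∧ (g * h) • pb = pa)) := by
    rintro g h (⟨h1, h2⟩ | ⟨h1, h2⟩) (⟨h3, h4⟩ | ⟨h3, h4⟩)
    · left; exact ⟨by rw [mul_smul, h3, h1], by rw [mul_smul, h4, h2]⟩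
    · right; exact ⟨by rw [mul_smul, h3, h2], by rw [mul_smul, h4, h1]⟩
    · right; exact ⟨by rw [mul_smul, h3, h1], by rw [mul_smul, h4, h2]⟩
    · left; exact ⟨by rw [mul_smul, h3, h2], by rw [mul_smul, h4, h1]⟩
  have hinvA : ∀ g : G, ((g • pa = pa ∧ g • pb = pb) ∨ (g • pa = pb ∧ g • pb = pa)) →
      ((g⁻¹ • pa = pa ∧ g⁻¹ • pb = pb) ∨ (g⁻¹ • pa = pb ∧ g⁻¹ • pb = pa)) := by
    rintro g (⟨h1, h2⟩ | ⟨h1, h2⟩)
    · left; exact ⟨by rw [inv_smul_eq_iff, h1], by rw [inv_smul_eq_iff, h2]⟩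
    · right; exact ⟨by rw [inv_smul_eq_iff, h2], by rw [inv_smul_eq_iff, h1]⟩
  obtain ⟨A, hA⟩ : ∃ A : Subgroup G, ∀ g, g ∈ A ↔
      ((g • pa = pa ∧ g • pb = pb) ∨ (g • pa = pb ∧ g • pb = pa)) :=
    ⟨⟨⟨⟨{g | (g • pa = pa ∧ g • pb = pb) ∨ (g • pa = pb ∧ g • pb = pa)},
      fun {g h} hg hh => hmulA g h hg hh⟩, Or.inl ⟨one_smul _ _, one_smul _ _⟩⟩,
      fun {g} hg => hinvA g hg⟩, fun g => Iff.rfl⟩
  haveI hSAn : (N.subgroupOf A).Normal := hNn.subgroupOf A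
  haveI hp2 : Fact (Nat.Prime 2) := ⟨Nat.prime_two⟩
  obtain ⟨Q⟩ : Nonempty (Sylow 2 (N.subgroupOf A)) := inferInstance
  obtain ⟨Qt, hQt⟩ : ∃ Qt : Subgroup A, Qt = (Q : Subgroup (N.subgroupOf A)).map
      (N.subgroupOf A).subtype := ⟨_, rfl⟩
  obtain ⟨QG, hQG⟩ : ∃ QG : Subgroup G, QG = Qt.map A.subtype := ⟨_, rfl⟩
  have hQN : ∀ q ∈ QG, q ∈ N ∧ q ∈ A := by
    intro q hq
    rw [hQG, hQt] at hq
    obtain ⟨y, ⟨z, -, rfl⟩, rfl⟩ := hq
    exact ⟨Subgroup.mem_subgroupOf.mp z.2, (z : A).2⟩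
  have hQcard : Nat.card QG = 2 ^ (Nat.card (N.subgroupOf A)).factorization 2 := by
    rw [hQG, Subgroup.card_map_of_injective A.subtype_injective, hQt,
      Subgroup.card_map_of_injective (N.subgroupOf A).subtype_injective]
    exact Q.card_eq_multiplicity
  have hQp : IsPGroup 2 QG := by
    rw [hQG, hQt]
    exact (Q.isPGroup'.map _).map _
  have hfr := Sylow.normalizer_sup_eq_top Q
  rw [← hQt] at hfr
  have hF2 : ∀ x ∈ A, ∃ ν ∈ N, ν ∈ A ∧ ∃ y : G, x = ν * y ∧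
      ∀ ε : Ω, (∀ q ∈ QG, q • ε = ε) → ∀ q ∈ QG, q • (y • ε) = y • ε := by
    intro x hx
    have hmem : (⟨x, hx⟩ : A)⁻¹ ∈ Subgroup.normalizer (Qt : Set A) ⊔ N.subgroupOf A := by
      rw [hfr]
      exact Subgroup.mem_top _
    obtain ⟨y', hy', z, hz, hyz⟩ := Subgroup.mem_sup_of_normal_right.mp hmem
    refine ⟨((z⁻¹ : A) : G), ?_, ?_, ((y'⁻¹ : A) : G), ?_, ?_⟩
    · exact N.inv_mem (Subgroup.mem_subgroupOf.mp hz)
    · exact (z⁻¹ : A).2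
    · have h1 : (⟨x, hx⟩ : A) = z⁻¹ * y'⁻¹ := by rw [← mul_inv_rev, hyz, inv_inv]
      exact congrArg Subtype.val h1
    · intro ε hε q hq
      rw [hQG] at hq
      obtain ⟨qt, hqt, rfl⟩ := hq
      have h1 : y' * qt * y'⁻¹ ∈ Qt := (Subgroup.mem_normalizer_iff.mp hy' qt).mp hqt
      have h2 : ((y' * qt * y'⁻¹ : A) : G) ∈ QG := by
        rw [hQG]
        exact ⟨_, h1, rfl⟩
      have h3 : ((y' : G) * (qt : G) * (y' : G)⁻¹) • ε = ε := hε _ h2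
      show (qt : G) • ((y' : G)⁻¹ • ε) = (y' : G)⁻¹ • ε
      have h4 : (qt : G) • ((y' : G)⁻¹ • ε) =
          (y' : G)⁻¹ • (((y' : G) * (qt : G) * (y' : G)⁻¹) • ε) := by
        rw [mul_smul, mul_smul, inv_smul_smul]
      rw [h4, h3]
  -- cardinalities
  obtain ⟨Dab, hDab⟩ : ∃ Dab : Subgroup G, Dab = N ⊓ MulAction.stabilizer G pa ⊓
      MulAction.stabilizer G pb := ⟨_, rfl⟩
  obtain ⟨τ, hτN, hτa, hτb⟩ := hN2 pa pb pb pa hpab (Ne.symm hpab)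
  have hτA : τ ∈ A := (hA τ).mpr (Or.inr ⟨hτa, hτb⟩)
  have hcardSA : Nat.card (N.subgroupOf A) = 2 * Nat.card Dab := by
    obtain ⟨D', hD'⟩ : ∃ D' : Subgroup (N.subgroupOf A),
        ∀ z : N.subgroupOf A, z ∈ D' ↔ ((z : A) : G) • pa = pa :=
      ⟨MulAction.stabilizer (N.subgroupOf A) pa, fun z => Iff.rfl⟩
    have hidx : D'.index = 2 := by
      rw [Subgroup.index_eq_two_iff]
      refine ⟨⟨⟨τ, hτA⟩, Subgroup.mem_subgroupOf.mpr hτN⟩, fun b => ?_⟩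
      rw [hD', hD']
      show Xor ((((b : A) : G) * τ) • pa = pa) (((b : A) : G) • pa = pa)
      rcases (hA _).mp (b : A).2 with ⟨h1, h2⟩ | ⟨h1, h2⟩
      · right
        refine ⟨h1, ?_⟩
        rw [mul_smul, hτa, h2]
        exact Ne.symm hpab
      · left
        refine ⟨by rw [mul_smul, hτa, h2], ?_⟩
        rw [h1]
        exact Ne.symm hpab
    have hD'card : Nat.card D' = Nat.card Dab := by
      have hmemD : ∀ z : D', (((z : N.subgroupOf A) : A) : G) ∈ Dab := by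
        intro z
        have h1 : (((z : N.subgroupOf A) : A) : G) • pa = pa := (hD' _).mp z.2
        have hN' : (((z : N.subgroupOf A) : A) : G) ∈ N :=
          Subgroup.mem_subgroupOf.mp (z : N.subgroupOf A).2
        rw [hDab]
        refine ⟨⟨hN', h1⟩, ?_⟩
        rcases (hA _).mp ((z : N.subgroupOf A) : A).2 with ⟨-, h2⟩ | ⟨h2, -⟩
        · exact h2
        · rw [h1] at h2
          exact absurd h2 hpab
      apply Nat.card_eq_of_bijective (fun z : D' => (⟨_, hmemD z⟩ : Dab))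
      constructor
      · intro z z' h
        have h' : (((z : N.subgroupOf A) : A) : G) = (((z' : N.subgroupOf A) : A) : G) :=
          congrArg (fun w : Dab => (w : G)) h
        exact Subtype.ext (Subtype.ext (Subtype.ext h'))
      · rintro ⟨d, hd⟩
        have hd' := hd
        rw [hDab] at hd'
        obtain ⟨⟨hdN, hda⟩, hdb⟩ := hd'
        have hdA : (d : G) ∈ A := (hA _).mpr (Or.inl ⟨hda, hdb⟩)
        refine ⟨⟨⟨⟨d, hdA⟩, Subgroup.mem_subgroupOf.mpr hdN⟩, (hD' _).mpr hda⟩, ?_⟩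
        exact Subtype.ext rfl
    rw [← Subgroup.card_mul_index D', hidx, hD'card, mul_comm]
  have hDconj : ∀ c d : Ω, c ≠ d → Nat.card ↥(N ⊓ MulAction.stabilizer G c ⊓
      MulAction.stabilizer G d) = Nat.card Dab := by
    intro c d hcd
    obtain ⟨ν, hν, hνa, hνb⟩ := hN2 pa pb c d hpab hcd
    symm
    rw [hDab]
    apply Nat.card_congr
    refine Equiv.subtypeEquiv (MulAut.conj ν).toEquiv (fun g => ?_)
    show g ∈ N ⊓ MulAction.stabilizer G pa ⊓ MulAction.stabilizer G pb ↔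
      ν * g * ν⁻¹ ∈ N ⊓ MulAction.stabilizer G c ⊓ MulAction.stabilizer G d
    constructor
    · rintro ⟨⟨h1, h2⟩, h3⟩
      have h2' : g • pa = pa := h2
      have h3' : g • pb = pb := h3
      refine ⟨⟨hNn.conj_mem g h1 ν, ?_⟩, ?_⟩
      · show (ν * g * ν⁻¹) • c = c
        rw [mul_smul, mul_smul, inv_smul_eq_iff.mpr hνa.symm, h2', hνa]
      · show (ν * g * ν⁻¹) • d = d
        rw [mul_smul, mul_smul, inv_smul_eq_iff.mpr hνb.symm, h3', hνb]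
    · rintro ⟨⟨h1, h2⟩, h3⟩
      have h2' : (ν * g * ν⁻¹) • c = c := h2
      have h3' : (ν * g * ν⁻¹) • d = d := h3
      have hg : g = ν⁻¹ * (ν * g * ν⁻¹) * ν⁻¹⁻¹ := by group
      refine ⟨⟨?_, ?_⟩, ?_⟩
      · rw [hg]
        exact hNn.conj_mem _ h1 ν⁻¹
      · show g • pa = pa
        rw [mul_smul, mul_smul, inv_smul_eq_iff.mpr hνa.symm, ← hνa] at h2'
        exact smul_left_cancel _ h2'
      · show g • pb = pb
        rw [mul_smul, mul_smul, inv_smul_eq_iff.mpr hνb.symm, ← hνb] at h3'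
        exact smul_left_cancel _ h3'
  have hL : ∀ c d : Ω, c ≠ d → ¬ (∀ q ∈ QG, q • c = c ∧ q • d = d) := by
    intro c d hcd hall
    have hle : QG ≤ N ⊓ MulAction.stabilizer G c ⊓ MulAction.stabilizer G d :=
      fun q hq => ⟨⟨(hQN q hq).1, (hall q hq).1⟩, (hall q hq).2⟩
    have hdvd := Subgroup.card_dvd_of_le hle
    rw [hQcard, hDconj c d hcd, hcardSA] at hdvd
    have hD0 : Nat.card Dab ≠ 0 := Nat.card_pos.ne'
    rw [Nat.factorization_mul (by norm_num) hD0, Finsupp.add_apply,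
      Nat.Prime.factorization_self Nat.prime_two, add_comm] at hdvd
    exact Nat.pow_succ_factorization_not_dvd hD0 Nat.prime_two hdvd
  obtain ⟨t, htQ, hta, htb⟩ : ∃ t ∈ QG, t • pa = pb ∧ t • pb = pa := by
    by_contra hcon
    apply hL pa pb hpab
    intro q hq
    rcases (hA q).mp (hQN q hq).2 with h | h
    · exact h
    · exact absurd ⟨q, hq, h⟩ hcon
  obtain ⟨γ₁, hγ₁⟩ : ∃ γ₁ : Ω, ∀ q ∈ QG, q • γ₁ = γ₁ := by
    have hmod := hQp.card_modEq_card_fixedPoints Ω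
    have hne : Nat.card (MulAction.fixedPoints QG Ω) ≠ 0 := by
      intro h0
      rw [h0] at hmod
      obtain ⟨m, hm⟩ := hodd
      rw [hm] at hmod
      unfold Nat.ModEq at hmod
      omega
    obtain ⟨⟨γ, hγ⟩⟩ := (Nat.card_pos_iff.mp (Nat.pos_of_ne_zero hne)).1
    exact ⟨γ, fun q hq => hγ ⟨q, hq⟩⟩
  have hγa : γ₁ ≠ pa := by
    intro h
    have h1 := hγ₁ t htQ
    rw [h, hta] at h1
    exact hpab h1.symm
  have hγb : γ₁ ≠ pb := by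
    intro h
    have h1 := hγ₁ t htQ
    rw [h, htb] at h1
    exact hpab h1
  have hγuniq : ∀ ε : Ω, (∀ q ∈ QG, q • ε = ε) → ε = γ₁ := by
    intro ε hε
    by_contra hne
    exact hL ε γ₁ hne (fun q hq => ⟨hε q hq, hγ₁ q hq⟩)
  have hSt : ∀ δ : Ω, δ ≠ pa → δ ≠ pb → ∃ ν ∈ N, ν ∈ A ∧ ν • γ₁ = δ := by
    intro δ h1 h2
    obtain ⟨x, hx1, hx2, hx3⟩ := h3t pa pb γ₁ pa pb δ hpab (Ne.symm hγa) (Ne.symm hγb) hpab
      (Ne.symm h1) (Ne.symm h2)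
    have hxA : x ∈ A := (hA x).mpr (Or.inl ⟨hx1, hx2⟩)
    obtain ⟨ν, hνN, hνA, y, hxy, hy⟩ := hF2 x hxA
    have hyγ : y • γ₁ = γ₁ := hγuniq _ (hy γ₁ hγ₁)
    refine ⟨ν, hνN, hνA, ?_⟩
    rw [← hx3, hxy, mul_smul, hyγ]
  have hDt : ∀ δ : Ω, δ ≠ pa → δ ≠ pb → ∃ d ∈ N, d • pa = pa ∧ d • pb = pb ∧ d • γ₁ = δ := by
    intro δ h1 h2
    obtain ⟨ν, hνN, hνA, hνγ⟩ := hSt δ h1 h2
    rcases (hA ν).mp hνA with ⟨e1, e2⟩ | ⟨e1, e2⟩
    · exact ⟨ν, hνN, e1, e2, hνγ⟩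
    · refine ⟨ν * t, N.mul_mem hνN (hQN t htQ).1, ?_, ?_, ?_⟩
      · rw [mul_smul, hta, e2]
      · rw [mul_smul, htb, e1]
      · rw [mul_smul, hγ₁ t htQ, hνγ]
  intro a b c a' b' c' hab hac hbc hab' hac' hbc'
  obtain ⟨ν₁, hν₁, h1a, h1b⟩ := hN2 a b pa pb hab hpab
  obtain ⟨ν₂, hν₂, h2a, h2b⟩ := hN2 a' b' pa pb hab' hpab
  have hc1 : ν₁ • c ≠ pa := by
    rw [← h1a]
    exact fun h => hac (smul_left_cancel _ h).symm
  have hc2 : ν₁ • c ≠ pb := by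
    rw [← h1b]
    exact fun h => hbc (smul_left_cancel _ h).symm
  have hc1' : ν₂ • c' ≠ pa := by
    rw [← h2a]
    exact fun h => hac' (smul_left_cancel _ h).symm
  have hc2' : ν₂ • c' ≠ pb := by
    rw [← h2b]
    exact fun h => hbc' (smul_left_cancel _ h).symm
  obtain ⟨d₁, hd₁, d1a, d1b, d1c⟩ := hDt (ν₁ • c) hc1 hc2
  obtain ⟨d₂, hd₂, d2a, d2b, d2c⟩ := hDt (ν₂ • c') hc1' hc2'
  refine ⟨ν₂⁻¹ * d₂ * d₁⁻¹ * ν₁,
    N.mul_mem (N.mul_mem (N.mul_mem (N.inv_mem hν₂) hd₂) (N.inv_mem hd₁)) hν₁, ?_, ?_, ?_⟩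
  · rw [mul_smul, mul_smul, mul_smul, h1a, inv_smul_eq_iff.mpr d1a.symm, d2a, inv_smul_eq_iff,
      h2a]
  · rw [mul_smul, mul_smul, mul_smul, h1b, inv_smul_eq_iff.mpr d1b.symm, d2b, inv_smul_eq_iff,
      h2b]
  · rw [mul_smul, mul_smul, mul_smul, inv_smul_eq_iff.mpr d1c.symm, d2c, inv_smul_smul]

end Cfsg.Agent.Helper18
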