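import Mathlib

set_option autoImplicit false

/-!
# A finite-field counting lemma (helper18)

A commuting set of endomorphisms of a finite abelian group `V`, transitive on the nonzero
elements, generates a finite field `E` with `|E| = |V|`.  If an automorphism `c` of prime
order `r` normalises the set and has exactly two fixed points on `V`, then `|V| = 2 ^ r`.
-/

namespace Cfsg.Agent.Helper18

/-- Conjugation by an invertible element of a ring, as a ring homomorphism. -/
def conjRingHom {R : Type*} [Ring R] (c d : R) (hcd : c * d = 1) (hdc : d * c = 1) :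
    R →+* R where
  toFun e := c * e * d
  map_one' := by rw [mul_one, hcd]
  map_mul' x y := by
    show c * (x * y) * d = c * x * d * (c * y * d)
    rw [show c * x * d * (c * y * d) = c * x * (d * c) * (y * d) by simp only [mul_assoc], hdc]
    simp only [mul_assoc, mul_one]
  map_zero' := by rw [mul_zero, zero_mul]
  map_add' x y := by rw [mul_add, add_mul]

theorem field_card {V : Type*} [AddCommGroup V] [Finite V] (S : Set (AddMonoid.End V))
    (hScomm : ∀ x ∈ S, ∀ y ∈ S, x * y = y * x)
    (hSt : ∀ v w : V, v ≠ 0 → w ≠ 0 → ∃ s ∈ S, s v = w)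
    (c d : AddMonoid.End V) (hcd : c * d = 1) (hdc : d * c = 1)
    (hcS : ∀ s ∈ S, c * s * d ∈ S) (r : ℕ) (hr : r.Prime) (hcr : c ^ r = 1)
    (v₀ : V) (hv₀ : v₀ ≠ 0) (hfix : ∀ v, c v = v ↔ v = 0 ∨ v = v₀)
    (w₀ : V) (hw₀ : w₀ ≠ 0) (hw₀' : w₀ ≠ v₀) :
    Nat.card V = 2 ^ r := by
  classical
  letI : CommRing (Subring.closure S) := Subring.closureCommRingOfComm hScomm
  have hfinEnd : Finite (AddMonoid.End V) := Finite.of_injective (fun e : AddMonoid.End V => (e : V → V))
    DFunLike.coe_injective
  have hfinE : Finite (Subring.closure S) := inferInstance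
  -- key: an element of `E` killing a nonzero vector is zero
  have hZ : ∀ e : Subring.closure S, ∀ v : V, v ≠ 0 → e.1 v = 0 → e = 0 := by
    intro e v hv hev
    apply Subtype.ext
    refine DFunLike.ext _ _ (fun w => ?_)
    by_cases hw : w = 0
    · rw [hw, map_zero, map_zero]
    · obtain ⟨s, hs, hsv⟩ := hSt v w hv hw
      have hcomm : e * (⟨s, Subring.subset_closure hs⟩ : Subring.closure S) =
          ⟨s, Subring.subset_closure hs⟩ * e := mul_comm _ _
      have hcomm' : e.1 * s = s * e.1 := congrArg Subtype.val hcomm
      have h1 : e.1 w = (e.1 * s) v := by rw [← hsv]; rfl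
      rw [h1, hcomm']
      show s (e.1 v) = 0
      rw [hev, map_zero]
  have hnt : Nontrivial (Subring.closure S) := by
    refine ⟨⟨0, 1, ?_⟩⟩
    intro h01
    have h := congrArg (fun e : Subring.closure S => e.1 v₀) h01
    exact hv₀ h.symm
  have hnzd : NoZeroDivisors (Subring.closure S) := by
    refine ⟨?_⟩
    intro a b hab
    by_cases hb : b = 0
    · exact Or.inr hb
    · left
      have : ∃ v, b.1 v ≠ 0 := by
        by_contra hcon
        apply hb
        apply Subtype.ext
        refine DFunLike.ext _ _ (fun w => ?_)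
        by_contra hw
        exact hcon ⟨w, hw⟩
      obtain ⟨v, hv⟩ := this
      apply hZ a (b.1 v) hv
      have h := congrArg (fun e : Subring.closure S => e.1 v) hab
      exact h
  have hdom : IsDomain (Subring.closure S) := NoZeroDivisors.to_isDomain _
  letI : Fintype (Subring.closure S) := Fintype.ofFinite _
  letI : Field (Subring.closure S) := Fintype.fieldOfDomain _
  -- evaluation at `v₀`
  have hevinj : ∀ e e' : Subring.closure S, e.1 v₀ = e'.1 v₀ → e = e' := by
    intro e e' h
    have h0 : e - e' = 0 := by
      apply hZ (e - e') v₀ hv₀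
      show e.1 v₀ - e'.1 v₀ = 0
      rw [h, sub_self]
    exact sub_eq_zero.mp h0
  have hevsurj : ∀ w : V, ∃ e : Subring.closure S, e.1 v₀ = w := by
    intro w
    by_cases hw : w = 0
    · exact ⟨0, by rw [hw]; rfl⟩
    · obtain ⟨s, hs, hsv⟩ := hSt v₀ w hv₀ hw
      exact ⟨⟨s, Subring.subset_closure hs⟩, hsv⟩
  have hcard : Nat.card (Subring.closure S) = Nat.card V :=
    Nat.card_eq_of_bijective (fun e : Subring.closure S => e.1 v₀)
      ⟨fun e e' h => hevinj e e' h, hevsurj⟩
  -- the automorphism
  have hmem : ∀ e ∈ Subring.closure S, conjRingHom c d hcd hdc e ∈ Subring.closure S := by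
    have : Subring.closure S ≤ (Subring.closure S).comap (conjRingHom c d hcd hdc) := by
      rw [Subring.closure_le]
      intro s hs
      exact Subring.subset_closure (hcS s hs)
    exact fun e he => this he
  obtain ⟨τ, hτ⟩ : ∃ τ : Subring.closure S →+* Subring.closure S,
      ∀ e : Subring.closure S, (τ e).1 = c * e.1 * d :=
    ⟨(conjRingHom c d hcd hdc).restrict _ _ hmem, fun e => rfl⟩
  have hτinj : Function.Injective τ := by
    intro e e' h
    apply Subtype.ext
    have h1 : c * e.1 * d = c * e'.1 * d := by rw [← hτ, ← hτ, h]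
    calc e.1 = d * (c * e.1 * d) * c := by
          rw [show d * (c * e.1 * d) * c = (d * c) * e.1 * (d * c) by simp only [mul_assoc], hdc,
            one_mul, mul_one]
      _ = d * (c * e'.1 * d) * c := by rw [h1]
      _ = e'.1 := by
          rw [show d * (c * e'.1 * d) * c = (d * c) * e'.1 * (d * c) by simp only [mul_assoc], hdc,
            one_mul, mul_one]
  have hτbij : Function.Bijective τ := ⟨hτinj, Finite.surjective_of_injective hτinj⟩
  obtain ⟨σ, hσ⟩ : ∃ σ : RingAut (Subring.closure S), ∀ e, σ e = τ e :=
    ⟨RingEquiv.ofBijective τ hτbij, fun e => rfl⟩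
  have hcv₀ : c v₀ = v₀ := (hfix v₀).mpr (Or.inr rfl)
  have hdv₀ : d v₀ = v₀ := by
    have h1 : d (c v₀) = (d * c) v₀ := rfl
    rw [hcv₀, hdc] at h1
    exact h1
  -- fixed points of `σ`
  have hσfix : ∀ e : Subring.closure S, σ e = e → e = 0 ∨ e = 1 := by
    intro e he
    have h1 : c (e.1 v₀) = e.1 v₀ := by
      have h2 : (σ e).1 v₀ = c (e.1 (d v₀)) := by rw [hσ, hτ]; rfl
      rw [he, hdv₀] at h2
      exact h2.symm
    rcases (hfix _).mp h1 with h | h
    · exact Or.inl (hZ e v₀ hv₀ h)
    · exact Or.inr (hevinj e 1 h)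
  -- powers of `σ`
  have hpow : ∀ (n : ℕ) (e : Subring.closure S), ((σ ^ n) e).1 = c ^ n * e.1 * d ^ n := by
    intro n
    induction n with
    | zero => intro e; simp
    | succ n ih =>
      intro e
      rw [pow_succ, RingAut.mul_apply, ih, hσ, hτ, pow_succ, pow_succ']
      simp only [mul_assoc]
  have hdr : d ^ r = 1 := by
    have : ∀ n : ℕ, d ^ n * c ^ n = 1 := by
      intro n
      induction n with
      | zero => simp
      | succ n ih =>
        rw [pow_succ, pow_succ', show d ^ n * d * (c * c ^ n) = d ^ n * (d * c) * c ^ n by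
          simp only [mul_assoc], hdc, mul_one, ih]
    have h := this r
    rw [hcr, mul_one] at h
    exact h
  have hσr : σ ^ r = 1 := by
    apply RingEquiv.ext
    intro e
    apply Subtype.ext
    rw [hpow, hcr, hdr, one_mul, mul_one]
    rfl
  have hσ1 : σ ≠ 1 := by
    intro h1
    obtain ⟨e, he⟩ := hevsurj w₀
    have : σ e = e := by rw [h1]; rfl
    rcases hσfix e this with h | h
    · apply hw₀
      rw [← he, h]
      rfl
    · apply hw₀'
      rw [← he, h]
      rfl
  haveI : Fact r.Prime := ⟨hr⟩
  have hord : orderOf σ = r := orderOf_eq_prime hσr hσ1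
  have hfinAut : Finite (RingAut (Subring.closure S)) :=
    Finite.of_injective (fun σ : RingAut (Subring.closure S) =>
      (σ : Subring.closure S → Subring.closure S)) DFunLike.coe_injective
  letI : Fintype (Subgroup.zpowers σ) := Fintype.ofFinite _
  -- Artin
  have hfinrank := FixedPoints.finrank_eq_card (Subgroup.zpowers σ) (Subring.closure S)
  have hcardΓ : Fintype.card (Subgroup.zpowers σ) = r := by
    rw [← Nat.card_eq_fintype_card, Nat.card_zpowers, hord]
  have hF : Nat.card (FixedPoints.subfield (Subgroup.zpowers σ) (Subring.closure S)) = 2 := by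
    have hset : ((FixedPoints.subfield (Subgroup.zpowers σ) (Subring.closure S) :
        Subfield (Subring.closure S)) : Set (Subring.closure S)) = {0, 1} := by
      ext e
      constructor
      · intro he
        have h1 : σ e = e := he ⟨σ, Subgroup.mem_zpowers σ⟩
        rcases hσfix e h1 with h | h
        · left; exact h
        · right; exact h
      · intro he
        rcases he with h | h
        · rw [h]; exact Subfield.zero_mem _
        · rw [Set.mem_singleton_iff] at h
          rw [h]; exact Subfield.one_mem _
    rw [← SetLike.coe_sort_coe, Nat.card_coe_set_eq, hset]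
    exact Set.ncard_pair zero_ne_one
  rw [← hcard, Module.natCard_eq_pow_finrank
    (K := FixedPoints.subfield (Subgroup.zpowers σ) (Subring.closure S)), hF, hfinrank, hcardΓ]

end Cfsg.Agent.Helper18
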